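import Cfsg.Agent.Lib.MatConj.Decomp
import Cfsg.Prelude.Def_JordanBlocks

/-!
# Jordan bases of nilpotent endomorphisms

`IsJordanBasis N d b`: `N b⟨k,j⟩ = b⟨k,j+1⟩` (or `0` at the end of the block).
Existence, rank invariants, uniqueness of the block sizes, and conjugacy.
-/

set_option autoImplicit false
set_option linter.unusedSectionVars false

namespace Cfsg.Agent.Lib.Jordan.Basis

open Polynomial Module

universe u v

variable {F : Type u} {V : Type v} [Field F] [AddCommGroup V] [Module F V]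

/-- A Jordan basis for `N`. -/
def IsJordanBasis {t : ℕ} (N : V →ₗ[F] V) (d : Fin t → ℕ) (b : Basis ((k : Fin t) × Fin (d k)) F V) : Prop :=
  ∀ (k : Fin t) (j : Fin (d k)), N (b ⟨k, j⟩) = if h : (j : ℕ) + 1 < d k then b ⟨k, ⟨j + 1, h⟩⟩ else 0

section
variable {t : ℕ} {N : V →ₗ[F] V} {d : Fin t → ℕ} {b : Basis ((k : Fin t) × Fin (d k)) F V}

theorem IsJordanBasis.pow_apply (h : IsJordanBasis N d b) (s : ℕ) (k : Fin t) (j : Fin (d k)) :
    (N ^ s) (b ⟨k, j⟩) = if h : (j : ℕ) + s < d k then b ⟨k, ⟨j + s, h⟩⟩ else 0 := by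
  induction s with
  | zero => simp
  | succ s ih =>
    rw [pow_succ', Module.End.mul_apply, ih]
    by_cases h1 : (j : ℕ) + s < d k
    · rw [dif_pos h1, h k ⟨j + s, h1⟩]
      by_cases h2 : (j : ℕ) + (s + 1) < d k
      · have h3 : (j : ℕ) + s + 1 < d k := by omega
        rw [dif_pos h2, dif_pos h3]
        congr 2
      · have h3 : ¬ (j : ℕ) + s + 1 < d k := by omega
        rw [dif_neg h2, dif_neg h3]
    · have h2 : ¬ (j : ℕ) + (s + 1) < d k := by omega
      rw [dif_neg h1, dif_neg h2, map_zero]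

theorem IsJordanBasis.pow_eq_zero_iff (h : IsJordanBasis N d b) (s : ℕ) :
    N ^ s = 0 ↔ ∀ k, d k ≤ s := by
  constructor
  · intro h0 k
    by_contra hlt
    push Not at hlt
    have h1 := h.pow_apply s k ⟨0, by omega⟩
    rw [h0, LinearMap.zero_apply, dif_pos (by simpa using hlt)] at h1
    exact b.ne_zero _ h1.symm
  · intro h0
    apply b.ext
    rintro ⟨k, j⟩
    rw [h.pow_apply, dif_neg (by have := h0 k; omega), LinearMap.zero_apply]

theorem IsJordanBasis.isNilpotent (h : IsJordanBasis N d b) : IsNilpotent N := by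
  refine ⟨∑ k, d k, ?_⟩
  rw [h.pow_eq_zero_iff]
  intro k
  exact Finset.single_le_sum (f := d) (fun _ _ => Nat.zero_le _) (Finset.mem_univ k)

theorem IsJordanBasis.sum_eq (_h : IsJordanBasis N d b) : ∑ k, d k = finrank F V := by
  rw [Module.finrank_eq_card_basis b]
  simp

/-- Rank of the powers. -/
theorem IsJordanBasis.finrank_range_pow (h : IsJordanBasis N d b) (s : ℕ) :
    finrank F (LinearMap.range (N ^ s)) = ∑ k, (d k - s) := by
  classical
  let I := (k : Fin t) × Fin (d k)
  let S := {x : I // s ≤ (x.2 : ℕ)}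
  have hrange : LinearMap.range (N ^ s) = Submodule.span F (Set.range (fun x : S => b x.1)) := by
    apply le_antisymm
    · rw [LinearMap.range_eq_map, ← b.span_eq, Submodule.map_span, Submodule.span_le]
      rintro _ ⟨_, ⟨x, rfl⟩, rfl⟩
      obtain ⟨k, j⟩ := x
      show (N ^ s) (b ⟨k, j⟩) ∈ _
      rw [h.pow_apply]
      split_ifs with h1
      · apply Submodule.subset_span
        exact ⟨⟨⟨k, ⟨j + s, h1⟩⟩, by simp⟩, rfl⟩
      · exact Submodule.zero_mem _
    · rw [Submodule.span_le]
      rintro _ ⟨⟨⟨k, j⟩, hx⟩, rfl⟩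
      have hx' : s ≤ (j : ℕ) := hx
      refine ⟨b ⟨k, ⟨j - s, by have := j.2; omega⟩⟩, ?_⟩
      rw [h.pow_apply, dif_pos (by have := j.2; show (j : ℕ) - s + s < d k; omega)]
      show b _ = b _
      congr 2
      apply Fin.ext
      show (j : ℕ) - s + s = j
      omega
  have hli : LinearIndependent F (fun x : S => b x.1) :=
    b.linearIndependent.comp _ Subtype.val_injective
  rw [hrange, finrank_span_eq_card hli]
  -- counting
  have h2 : Fintype.card S = (Finset.univ.filter (fun x : I => s ≤ (x.2 : ℕ))).card := Fintype.card_subtype _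
  rw [h2]
  have h3 : (Finset.univ.filter (fun x : I => s ≤ (x.2 : ℕ))) = Finset.univ.sigma (fun k => Finset.univ.filter (fun j : Fin (d k) => s ≤ (j : ℕ))) := by
    ext ⟨k, j⟩
    simp only [Finset.mem_filter, Finset.mem_univ, true_and]
    exact ⟨fun hh => Finset.mem_sigma.mpr ⟨Finset.mem_univ _, by simpa using hh⟩, fun hh => by simpa using (Finset.mem_sigma.mp hh).2⟩
  rw [h3, Finset.card_sigma]
  refine Finset.sum_congr rfl fun k _ => ?_
  have h4 : (Finset.univ.filter (fun j : Fin (d k) => s ≤ (j : ℕ))).card = (Finset.Ico s (d k)).card := by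
    apply Finset.card_bij (fun (j : Fin (d k)) _ => (j : ℕ))
    · intro j hj
      simp only [Finset.mem_filter, Finset.mem_univ, true_and] at hj
      simp [Finset.mem_Ico, hj, j.2]
    · intro a _ b _ hab
      exact Fin.ext hab
    · intro a ha
      rw [Finset.mem_Ico] at ha
      exact ⟨⟨a, ha.2⟩, by simp [ha.1], rfl⟩
  rw [h4, Nat.card_Ico]

end

/-- Multisets determined by truncated sums. -/
theorem multiset_eq_of_sum_sub (M M' : Multiset ℕ) (h0 : 0 ∉ M) (h0' : 0 ∉ M')
    (h : ∀ s, (M.map (fun a => a - s)).sum = (M'.map (fun a => a - s)).sum) : M = M' := by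
  classical
  have key : ∀ (L : Multiset ℕ) (s : ℕ), (L.map (fun a => a - s)).sum =
      (L.filter (LE.le (s + 1))).card + (L.map (fun a => a - (s + 1))).sum := by
    intro L s
    induction L using Multiset.induction_on with
    | empty => simp
    | cons a L ih =>
      rw [Multiset.map_cons, Multiset.sum_cons, Multiset.map_cons, Multiset.sum_cons, ih]
      by_cases ha : s + 1 ≤ a
      · rw [Multiset.filter_cons_of_pos _ ha, Multiset.card_cons]
        omega
      · rw [Multiset.filter_cons_of_neg _ ha]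
        omega
  have h1 : ∀ s, (M.filter (LE.le (s + 1))).card = (M'.filter (LE.le (s + 1))).card := by
    intro s
    have h2 := key M s
    have h3 := key M' s
    have h4 := h s
    have h5 := h (s + 1)
    omega
  ext a
  have cnt : ∀ L : Multiset ℕ, L.count a + (L.filter (LE.le (a + 1))).card = (L.filter (LE.le a)).card := by
    intro L
    induction L using Multiset.induction_on with
    | empty => simp
    | cons x L ih =>
      by_cases hxa : x = a
      · subst hxa
        have h1 : ¬ x + 1 ≤ x := by omega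
        rw [Multiset.count_cons_self, Multiset.filter_cons_of_neg _ h1, Multiset.filter_cons_of_pos _ (le_refl x), Multiset.card_cons]
        omega
      · have hx' : a ≠ x := Ne.symm hxa
        by_cases hax : a ≤ x
        · have : a + 1 ≤ x := by omega
          simp only [Multiset.count_cons_of_ne hx', Multiset.filter_cons_of_pos _ hax, Multiset.filter_cons_of_pos _ this, Multiset.card_cons]
          omega
        · have : ¬ a + 1 ≤ x := by omega
          simp only [Multiset.count_cons_of_ne hx', Multiset.filter_cons_of_neg _ hax, Multiset.filter_cons_of_neg _ this]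
          omega
  have h6 := cnt M
  have h7 := cnt M'
  cases a with
  | zero =>
    rw [Multiset.count_eq_zero_of_notMem h0, Multiset.count_eq_zero_of_notMem h0']
  | succ a =>
    have h8 := h1 a
    have h9 := h1 (a + 1)
    omega

/-- The multiset of block sizes. -/
def mset {t : ℕ} (d : Fin t → ℕ) : Multiset ℕ := Multiset.map d Finset.univ.val

theorem mset_sum_sub {t : ℕ} (d : Fin t → ℕ) (s : ℕ) : ((mset d).map (fun a => a - s)).sum = ∑ k, (d k - s) := by
  rw [mset, Multiset.map_map]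
  rfl

theorem zero_notMem_mset {t : ℕ} {d : Fin t → ℕ} (hd : ∀ k, 1 ≤ d k) : 0 ∉ mset d := by
  intro h
  obtain ⟨k, -, hk⟩ := Multiset.mem_map.mp h
  have := hd k
  omega

theorem exists_fin_equiv {t t' : ℕ} {d : Fin t → ℕ} {d' : Fin t' → ℕ} (h : mset d = mset d') :
    ∃ σ : Fin t ≃ Fin t', ∀ k, d' (σ k) = d k := by
  classical
  have hc : ∀ a, Fintype.card {k // d k = a} = Fintype.card {k // d' k = a} := by
    intro a
    have h1 : ∀ {t : ℕ} (d : Fin t → ℕ), Fintype.card {k // d k = a} = (mset d).count a := by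
      intro t d
      rw [Fintype.card_subtype, mset, Multiset.count_map]
      rw [Finset.card, Finset.filter_val]
      congr 1
      apply Multiset.filter_congr
      intro x _
      exact eq_comm
    rw [h1, h1, h]
  let e : ∀ a, {k // d k = a} ≃ {k // d' k = a} := fun a => Fintype.equivOfCardEq (hc a)
  refine ⟨Equiv.ofFiberEquiv e, fun k => ?_⟩
  exact Equiv.ofFiberEquiv_map e k

section
variable {t t' : ℕ} {N N' : V →ₗ[F] V} {d : Fin t → ℕ} {d' : Fin t' → ℕ}
  {b : Basis ((k : Fin t) × Fin (d k)) F V} {b' : Basis ((k : Fin t') × Fin (d' k)) F V}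

/-- Same multiset of blocks implies conjugate. -/
theorem conj_of_mset_eq (h : IsJordanBasis N d b) (h' : IsJordanBasis N' d' b') (hm : mset d = mset d') :
    ∃ P : V ≃ₗ[F] V, ∀ x, P (N x) = N' (P x) := by
  obtain ⟨σ, hσ⟩ := exists_fin_equiv hm
  let E : ((k : Fin t) × Fin (d k)) ≃ ((k : Fin t') × Fin (d' k)) :=
    Equiv.sigmaCongr σ (fun k => finCongr (hσ k).symm)
  refine ⟨b.equiv b' E, fun x => ?_⟩
  have key : ∀ x, (b.equiv b' E) (N (b x)) = N' ((b.equiv b' E) (b x)) := by
    rintro ⟨k, j⟩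
    rw [Basis.equiv_apply]
    have hE : E ⟨k, j⟩ = ⟨σ k, ⟨j, by rw [hσ]; exact j.2⟩⟩ := rfl
    rw [hE, h k j, h' (σ k)]
    by_cases h1 : (j : ℕ) + 1 < d k
    · have h2 : (j : ℕ) + 1 < d' (σ k) := by rw [hσ]; exact h1
      rw [dif_pos h1, dif_pos h2, Basis.equiv_apply]
      rfl
    · have h2 : ¬ (j : ℕ) + 1 < d' (σ k) := by rw [hσ]; exact h1
      rw [dif_neg h1, dif_neg h2, map_zero]
  have : (b.equiv b' E).toLinearMap ∘ₗ N = N' ∘ₗ (b.equiv b' E).toLinearMap :=
    b.ext (fun i => key i)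
  exact LinearMap.congr_fun this x

theorem mset_eq_of_conj (h : IsJordanBasis N d b) (h' : IsJordanBasis N' d' b')
    (hd : ∀ k, 1 ≤ d k) (hd' : ∀ k, 1 ≤ d' k) (P : V ≃ₗ[F] V) (hP : ∀ x, P (N x) = N' (P x)) :
    mset d = mset d' := by
  apply multiset_eq_of_sum_sub _ _ (zero_notMem_mset hd) (zero_notMem_mset hd')
  intro s
  rw [mset_sum_sub, mset_sum_sub, ← h.finrank_range_pow, ← h'.finrank_range_pow]
  have hpow : ∀ x, P ((N ^ s) x) = (N' ^ s) (P x) := by
    induction s with
    | zero => simp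
    | succ s ih =>
      intro x
      rw [pow_succ, Module.End.mul_apply, pow_succ, Module.End.mul_apply, ih, hP]
  have hr : LinearMap.range (N' ^ s) = (LinearMap.range (N ^ s)).map P.toLinearMap := by
    ext y
    constructor
    · rintro ⟨x, rfl⟩
      refine ⟨(N ^ s) (P.symm x), ⟨_, rfl⟩, ?_⟩
      show P ((N ^ s) (P.symm x)) = _
      rw [hpow, LinearEquiv.apply_symm_apply]
    · rintro ⟨_, ⟨x, rfl⟩, rfl⟩
      exact ⟨P x, (hpow x).symm⟩
  rw [hr]
  exact (LinearEquiv.finrank_map_eq P _).symm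

end

/-- Existence of a Jordan basis. -/
theorem exists_jordanBasis [FiniteDimensional F V] (N : V →ₗ[F] V) (hN : IsNilpotent N) :
    ∃ (t : ℕ) (d : Fin t → ℕ) (b : Basis ((k : Fin t) × Fin (d k)) F V),
      (∀ k, 1 ≤ d k) ∧ IsJordanBasis N d b := by
  classical
  obtain ⟨M, hM⟩ := hN
  obtain ⟨ι, hι, P, hP, hPm, e, Φ, hΦ⟩ := Cfsg.Agent.Lib.MatConj.Decomp.exists_decomp N
  have hpow : ∀ (s : ℕ) (x : V) (i : ι), Φ ((N ^ s) x) i = AdjoinRoot.root _ ^ s * Φ x i := by
    intro s
    induction s with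
    | zero => simp
    | succ s ih =>
      intro x i
      rw [pow_succ', Module.End.mul_apply, hΦ, ih, pow_succ', mul_assoc]
  have hPX : ∀ i, e i ≠ 0 → P i = X := by
    intro i hi
    have h1 := hpow M (Φ.symm (Pi.single i 1)) i
    rw [hM, LinearMap.zero_apply, map_zero, LinearEquiv.apply_symm_apply] at h1
    simp only [Pi.zero_apply, Pi.single_eq_same, mul_one] at h1
    have h2 : AdjoinRoot.mk (P i ^ e i) (X ^ M) = 0 := by
      rw [map_pow]
      exact h1.symm
    rw [AdjoinRoot.mk_eq_zero] at h2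
    have h3 : P i ∣ X ^ M := (dvd_pow_self _ hi).trans h2
    have h4 : P i ∣ X := (hP i).prime.dvd_of_dvd_pow h3
    exact eq_of_monic_of_associated (hPm i) monic_X ((hP i).associated_of_dvd irreducible_X h4)
  have hdeg : ∀ i, (P i ^ e i).natDegree = e i := by
    intro i
    by_cases hi : e i = 0
    · rw [hi]; simp
    · rw [hPX i hi]; simp
  have hmon : ∀ i, (P i ^ e i).Monic := fun i => (hPm i).pow _
  let B : ∀ i, Basis (Fin (e i)) F (AdjoinRoot (P i ^ e i)) := fun i =>
    (AdjoinRoot.powerBasis' (hmon i)).basis.reindex (finCongr (hdeg i))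
  have hB : ∀ i (j : Fin (e i)), B i j = AdjoinRoot.root _ ^ (j : ℕ) := by
    intro i j
    simp only [B, Basis.reindex_apply, PowerBasis.coe_basis]
    rfl
  let b₀ : Basis ((i : ι) × Fin (e i)) F V := (Pi.basis B).map Φ.symm
  have hb₀ : ∀ i j, Φ (b₀ ⟨i, j⟩) = Pi.single i (B i j) := by
    intro i j
    simp [b₀, Pi.basis_apply]
  have hJ₀ : ∀ i (j : Fin (e i)), N (b₀ ⟨i, j⟩) = if h : (j : ℕ) + 1 < e i then b₀ ⟨i, ⟨j + 1, h⟩⟩ else 0 := by
    intro i j
    apply Φ.injective
    ext l
    rw [hΦ, hb₀]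
    by_cases hl : l = i
    · subst hl
      rw [Pi.single_eq_same, hB]
      by_cases h : (j : ℕ) + 1 < e l
      · rw [dif_pos h, hb₀, Pi.single_eq_same, hB]
        rw [pow_succ']
      · have hj : (j : ℕ) + 1 = e l := by have := j.2; omega
        rw [dif_neg h, map_zero, ← pow_succ', hj]
        have hne : e l ≠ 0 := by have := j.2; omega
        have h0 : (AdjoinRoot.root (P l ^ e l)) ^ e l = 0 := by
          have h1 : AdjoinRoot.mk (P l ^ e l) (X ^ e l) = 0 := by
            rw [AdjoinRoot.mk_eq_zero, hPX l hne]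
          rw [map_pow] at h1
          exact h1
        rw [h0]
        rfl
    · rw [Pi.single_eq_of_ne hl, mul_zero]
      by_cases h : (j : ℕ) + 1 < e i
      · rw [dif_pos h, hb₀, Pi.single_eq_of_ne hl]
      · rw [dif_neg h, map_zero]
        rfl
  -- drop the zero blocks
  let J := {i // e i ≠ 0}
  let t := Fintype.card J
  let ε : Fin t ≃ J := (Fintype.equivFin J).symm
  let d : Fin t → ℕ := fun k => e (ε k).1
  let E₀ : ((k : Fin t) × Fin (d k)) → ((i : ι) × Fin (e i)) := fun x => ⟨(ε x.1).1, x.2⟩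
  have hE₀ : Function.Bijective E₀ := by
    constructor
    · rintro ⟨k, j⟩ ⟨k', j'⟩ h
      have h1 : (ε k).1 = (ε k').1 := congrArg Sigma.fst h
      have h2 : k = k' := ε.injective (Subtype.ext h1)
      subst h2
      have h3 : (j : ℕ) = j' := by
        have := congrArg (fun x : (i : ι) × Fin (e i) => (x.2 : ℕ)) h
        exact this
      congr
      exact Fin.ext h3
    · rintro ⟨i, j⟩
      have hi : e i ≠ 0 := by have := j.2; omega
      obtain ⟨k, hk⟩ := ε.surjective ⟨i, hi⟩
      have h1 : (ε k).1 = i := congrArg Subtype.val hk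
      subst h1
      exact ⟨⟨k, j⟩, rfl⟩
  let b : Basis ((k : Fin t) × Fin (d k)) F V := b₀.reindex (Equiv.ofBijective E₀ hE₀).symm
  have hb : ∀ k j, b ⟨k, j⟩ = b₀ ⟨(ε k).1, j⟩ := by
    intro k j
    simp only [b, Basis.reindex_apply, Equiv.symm_symm]
    rfl
  refine ⟨t, d, b, fun k => ?_, fun k j => ?_⟩
  · have := (ε k).2
    exact Nat.one_le_iff_ne_zero.mpr this
  · rw [hb, hJ₀]
    by_cases h : (j : ℕ) + 1 < d k
    · have h' : (j : ℕ) + 1 < e (ε k).1 := h
      rw [dif_pos h', dif_pos h, hb]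
    · have h' : ¬ (j : ℕ) + 1 < e (ε k).1 := h
      rw [dif_neg h', dif_neg h]

/-- The standard model. -/
theorem isJordanBasis_std {t : ℕ} (d : Fin t → ℕ) :
    IsJordanBasis (Matrix.mulVecLin (Cfsg.jordanTypeMatrix d F - 1)) d (Pi.basisFun F _) := by
  classical
  intro k j
  ext ⟨k', i⟩
  have h1 : (Matrix.mulVecLin (Cfsg.jordanTypeMatrix d F - 1)) ((Pi.basisFun F ((k : Fin t) × Fin (d k))) ⟨k, j⟩) ⟨k', i⟩
      = (Cfsg.jordanTypeMatrix d F - 1) ⟨k', i⟩ ⟨k, j⟩ := by
    simp only [Pi.basisFun_apply, Matrix.mulVecLin_apply, Matrix.mulVec_single_one, Matrix.col_apply]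
  rw [h1]
  by_cases hk : k' = k
  · subst hk
    have h2 : Cfsg.jordanTypeMatrix d F ⟨k', i⟩ ⟨k', j⟩ = Cfsg.jordanBlock (d k') F i j :=
      Matrix.blockDiagonal'_apply_eq _ _ _ _
    rw [Matrix.sub_apply, h2, Matrix.one_apply]
    simp only [Cfsg.jordanBlock, Matrix.of_apply, Sigma.mk.injEq, heq_eq_eq, true_and]
    by_cases hij : i = j
    · subst hij
      have h3 : ¬ ((i : ℕ) + 1 < d k' ∧ (i : ℕ) = (i : ℕ) + 1) := by omega
      by_cases h : (i : ℕ) + 1 < d k'
      · rw [dif_pos h]
        simp [Pi.single_apply, Fin.ext_iff]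
      · rw [dif_neg h]
        simp
    · have hij' : (i : ℕ) ≠ j := fun h => hij (Fin.ext h)
      simp only [hij', hij, if_false, sub_zero]
      by_cases h : (j : ℕ) + 1 < d k'
      · rw [dif_pos h]
        simp [Pi.single_apply, Fin.ext_iff]
      · have h4 : (i : ℕ) ≠ (j : ℕ) + 1 := by have := i.2; omega
        rw [dif_neg h]
        simp [h4]
  · have h2 : Cfsg.jordanTypeMatrix d F ⟨k', i⟩ ⟨k, j⟩ = 0 :=
      Matrix.blockDiagonal'_apply_ne _ _ _ hk
    rw [Matrix.sub_apply, h2, Matrix.one_apply, if_neg (by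
      intro h
      exact hk (congrArg Sigma.fst h))]
    by_cases h : (j : ℕ) + 1 < d k
    · rw [dif_pos h]
      simp [Pi.single_apply, hk]
    · rw [dif_neg h]
      simp

end Cfsg.Agent.Lib.Jordan.Basis
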