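import Cfsg.Prelude.Def_JordanBlocks
import Mathlib

/-!
# The commutant of a unipotent matrix in Jordan form

Entries of a matrix commuting with `jordanTypeMatrix d F`, the parametrization of the commutant
and the criterion for invertibility.
-/

set_option autoImplicit false
set_option linter.unusedSectionVars false

namespace Cfsg.Agent.Lib.Jordan.Cent

open Matrix Finset
open Cfsg

variable {F : Type*} [Field F] {t : ℕ} {d : Fin t → ℕ}

/-- The index type. -/
abbrev Ix (d : Fin t → ℕ) := (k : Fin t) × Fin (d k)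

variable (d F) in
/-- The nilpotent part. -/
def Nil : Matrix (Ix d) (Ix d) F :=
  fun x y => if x.1 = y.1 ∧ (x.2 : ℕ) = (y.2 : ℕ) + 1 then 1 else 0

theorem J_eq : jordanTypeMatrix d F = 1 + Nil F d := by
  ext ⟨k, a⟩ ⟨l, c⟩
  simp only [jordanTypeMatrix, Matrix.blockDiagonal'_apply, jordanBlock, Matrix.add_apply, Nil,
    Matrix.one_apply, Matrix.of_apply, Sigma.mk.injEq]
  by_cases h : k = l
  · subst h
    simp only [dif_pos, true_and, cast_eq]
    by_cases h1 : (a : ℕ) = c
    · have h2 : ¬ (a : ℕ) = c + 1 := by omega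
      have h3 : a = c := Fin.ext h1
      simp [h1, h3]
    · have h3 : ¬ a = c := fun h => h1 (by rw [h])
      simp [h1, h3]
  · simp [h]

theorem mul_Nil (A : Matrix (Ix d) (Ix d) F) (x y : Ix d) :
    (A * Nil F d) x y = if h : (y.2 : ℕ) + 1 < d y.1 then A x ⟨y.1, ⟨y.2 + 1, h⟩⟩ else 0 := by
  rw [Matrix.mul_apply]
  obtain ⟨k, c⟩ := y
  by_cases h : (c : ℕ) + 1 < d k
  · rw [dif_pos h, Finset.sum_eq_single (⟨k, ⟨c + 1, h⟩⟩ : Ix d)]
    · simp [Nil]
    · rintro ⟨m, e⟩ - hne
      have : ¬ (m = k ∧ (e : ℕ) = c + 1) := by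
        rintro ⟨rfl, h2⟩
        exact hne (by
          congr 1
          exact Fin.ext h2)
      simp [Nil, this]
    · simp
  · rw [dif_neg h]
    apply Finset.sum_eq_zero
    rintro ⟨m, e⟩ -
    have : ¬ (m = k ∧ (e : ℕ) = c + 1) := by
      rintro ⟨rfl, h2⟩
      have := e.2
      omega
    simp [Nil, this]

theorem Nil_mul (A : Matrix (Ix d) (Ix d) F) (x y : Ix d) :
    (Nil F d * A) x y = if h : 1 ≤ (x.2 : ℕ) then A ⟨x.1, ⟨x.2 - 1, by have := x.2.2; omega⟩⟩ y else 0 := by
  rw [Matrix.mul_apply]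
  obtain ⟨l, a⟩ := x
  by_cases h : 1 ≤ (a : ℕ)
  · rw [dif_pos h, Finset.sum_eq_single (⟨l, ⟨a - 1, by have := a.2; omega⟩⟩ : Ix d)]
    · have : (a : ℕ) = a - 1 + 1 := by omega
      simp [Nil, ← this]
    · rintro ⟨m, e⟩ - hne
      have : ¬ (l = m ∧ (a : ℕ) = e + 1) := by
        rintro ⟨rfl, h2⟩
        exact hne (by
          congr 1
          apply Fin.ext
          simp
          omega)
      simp [Nil, this]
    · simp
  · rw [dif_neg h]
    apply Finset.sum_eq_zero
    rintro ⟨m, e⟩ -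
    have : ¬ (l = m ∧ (a : ℕ) = e + 1) := by
      rintro ⟨rfl, h2⟩
      omega
    simp [Nil, this]

theorem comm_iff (A : Matrix (Ix d) (Ix d) F) :
    A * jordanTypeMatrix d F = jordanTypeMatrix d F * A ↔ A * Nil F d = Nil F d * A := by
  rw [J_eq, mul_add, add_mul, mul_one, one_mul]
  exact add_right_inj A

/-- Total version of the entries. -/
def B (A : Matrix (Ix d) (Ix d) F) (l k : Fin t) (a c : ℕ) : F :=
  if h : a < d l ∧ c < d k then A ⟨l, ⟨a, h.1⟩⟩ ⟨k, ⟨c, h.2⟩⟩ else 0

theorem B_apply (A : Matrix (Ix d) (Ix d) F) (x y : Ix d) : B A x.1 y.1 x.2 y.2 = A x y := by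
  obtain ⟨l, a⟩ := x
  obtain ⟨k, c⟩ := y
  simp [B]

theorem B_of_le_left (A : Matrix (Ix d) (Ix d) F) {l k : Fin t} {a c : ℕ} (h : d l ≤ a) : B A l k a c = 0 := by
  rw [B, dif_neg]
  omega

theorem B_of_le_right (A : Matrix (Ix d) (Ix d) F) {l k : Fin t} {a c : ℕ} (h : d k ≤ c) : B A l k a c = 0 := by
  rw [B, dif_neg]
  omega

section Rel

variable {A : Matrix (Ix d) (Ix d) F} (hA : A * Nil F d = Nil F d * A)
include hA

theorem B_rel0 (l k : Fin t) (c : ℕ) : B A l k 0 (c + 1) = 0 := by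
  by_cases hl : 0 < d l
  · by_cases hc : c < d k
    · have h1 := congrFun (congrFun hA ⟨l, ⟨0, hl⟩⟩) ⟨k, ⟨c, hc⟩⟩
      rw [mul_Nil, Nil_mul] at h1
      simp only [dif_neg (show ¬ 1 ≤ 0 by omega)] at h1
      by_cases h2 : c + 1 < d k
      · rw [dif_pos h2] at h1
        rw [B, dif_pos ⟨hl, h2⟩]
        exact h1
      · exact B_of_le_right A (by omega)
    · exact B_of_le_right A (by omega)
  · exact B_of_le_left A (by omega)

theorem B_rel (l k : Fin t) (a c : ℕ) (ha : a + 1 < d l) (hc : c < d k) : B A l k (a + 1) (c + 1) = B A l k a c := by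
  have h1 := congrFun (congrFun hA ⟨l, ⟨a + 1, ha⟩⟩) ⟨k, ⟨c, hc⟩⟩
  rw [mul_Nil, Nil_mul] at h1
  simp only [dif_pos (show 1 ≤ a + 1 by omega), Nat.add_sub_cancel] at h1
  rw [B.eq_1 A l k a c, dif_pos ⟨by omega, hc⟩, ← h1]
  by_cases h2 : c + 1 < d k
  · rw [dif_pos h2, B, dif_pos ⟨ha, h2⟩]
  · rw [dif_neg h2]
    exact B_of_le_right A (by omega)

theorem B_lt (l k : Fin t) : ∀ (a c : ℕ), a < c → B A l k a c = 0 := by
  intro a
  induction a with
  | zero =>
    intro c hc
    obtain ⟨c, rfl⟩ : ∃ c', c = c' + 1 := ⟨c - 1, by omega⟩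
    exact B_rel0 hA l k c
  | succ a ih =>
    intro c hc
    obtain ⟨c, rfl⟩ : ∃ c', c = c' + 1 := ⟨c - 1, by omega⟩
    by_cases h1 : a + 1 < d l
    · by_cases h2 : c < d k
      · rw [B_rel hA l k a c h1 h2]
        exact ih c (by omega)
      · exact B_of_le_right A (by omega)
    · exact B_of_le_left A (by omega)

theorem B_shift (l k : Fin t) (a c : ℕ) (ha : a < d l) (hc : c < d k) (hca : c ≤ a) : B A l k a c = B A l k (a - c) 0 := by
  induction c generalizing a with
  | zero => simp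
  | succ c ih =>
    obtain ⟨a, rfl⟩ : ∃ a', a = a' + 1 := ⟨a - 1, by omega⟩
    rw [B_rel hA l k a c ha (by omega), ih a (by omega) (by omega) (by omega)]
    congr 1
    omega

theorem B_up (l k : Fin t) (a : ℕ) : ∀ s, s ≤ d k → a + s < d l → B A l k a 0 = B A l k (a + s) s := by
  intro s
  induction s with
  | zero => simp
  | succ s ih =>
    intro h1 h2
    rw [ih (by omega) (by omega), ← B_rel hA l k (a + s) s (by omega) (by omega)]
    rfl

theorem B_far (l k : Fin t) (a : ℕ) (h : a + d k < d l) : B A l k a 0 = 0 := by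
  rw [B_up hA l k a (d k) le_rfl h]
  exact B_of_le_right A le_rfl

/-- The formula for the entries of a matrix in the commutant. -/
theorem B_formula (l k : Fin t) (a c : ℕ) (ha : a < d l) (hc : c < d k) :
    B A l k a c = if c ≤ a then B A l k (a - c) 0 else 0 := by
  split_ifs with h
  · exact B_shift hA l k a c ha hc h
  · exact B_lt hA l k a c (by omega)

/-- Vanishing of the entries. -/
theorem entry_ne_zero (x y : Ix d) (h : A x y ≠ 0) :
    (y.2 : ℕ) ≤ x.2 ∧ d x.1 - 1 - x.2 ≤ d y.1 - 1 - y.2 := by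
  obtain ⟨l, a⟩ := x
  obtain ⟨k, c⟩ := y
  rw [← B_apply A ⟨l, a⟩ ⟨k, c⟩] at h
  simp only at h ⊢
  rw [B_formula hA l k a c a.2 c.2] at h
  have ha := a.2
  have hc := c.2
  by_cases h1 : (c : ℕ) ≤ a
  · rw [if_pos h1] at h
    refine ⟨h1, ?_⟩
    by_contra h2
    apply h
    apply B_far hA
    omega
  · rw [if_neg h1] at h
    exact absurd rfl h

/-- The entries between blocks of the same size on the diagonal. -/
theorem entry_diag (l k : Fin t) (hlk : d l = d k) (a : ℕ) (ha : a < d l) :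
    B A l k a a = B A l k 0 0 := by
  rw [B_shift hA l k a a ha (by omega) le_rfl, Nat.sub_self]

end Rel

/-! ### The parametrization -/

variable (d) in
/-- The parameters. -/
abbrev Par := (k : Fin t) × (l : Fin t) × Fin (min (d k) (d l))

/-- Extension by zero. -/
def ext0 (α : Par d → F) (k l : Fin t) (b : ℕ) : F :=
  if h : b < min (d k) (d l) then α ⟨k, l, ⟨b, h⟩⟩ else 0

/-- The matrix with the given parameters. -/
def mk0 (α : Par d → F) : Matrix (Ix d) (Ix d) F :=
  fun x y => if (y.2 : ℕ) ≤ x.2 then ext0 α y.1 x.1 (d x.1 - 1 - (x.2 - y.2)) else 0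

theorem mk0_comm (α : Par d → F) : mk0 α * Nil F d = Nil F d * mk0 α := by
  ext ⟨l, a⟩ ⟨k, c⟩
  rw [mul_Nil, Nil_mul]
  simp only
  have ha := a.2
  have hc := c.2
  by_cases h1 : 1 ≤ (a : ℕ)
  · rw [dif_pos h1]
    by_cases h2 : (c : ℕ) + 1 < d k
    · rw [dif_pos h2]
      simp only [mk0]
      by_cases h3 : (c : ℕ) + 1 ≤ a
      · rw [if_pos h3, if_pos (by omega)]
        congr 1
        omega
      · rw [if_neg h3, if_neg (by omega)]
    · rw [dif_neg h2]
      simp only [mk0]
      by_cases h3 : (c : ℕ) ≤ a - 1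
      · rw [if_pos h3, ext0, dif_neg]
        have : d k ≤ d l - 1 - ((a : ℕ) - 1 - c) := by omega
        have h5 := min_le_left (d k) (d l)
        omega
      · rw [if_neg h3]
  · rw [dif_neg h1]
    by_cases h2 : (c : ℕ) + 1 < d k
    · rw [dif_pos h2]
      simp only [mk0]
      rw [if_neg (by omega)]
    · rw [dif_neg h2]

/-- The parameters of a matrix. -/
def pars (A : Matrix (Ix d) (Ix d) F) : Par d → F :=
  fun s => B A s.2.1 s.1 (d s.2.1 - 1 - s.2.2) 0

theorem mk0_pars {A : Matrix (Ix d) (Ix d) F} (hA : A * Nil F d = Nil F d * A) : mk0 (pars A) = A := by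
  ext ⟨l, a⟩ ⟨k, c⟩
  simp only [mk0]
  rw [← B_apply A ⟨l, a⟩ ⟨k, c⟩]
  simp only
  have ha := a.2
  have hc := c.2
  rw [B_formula hA l k a c ha hc]
  by_cases h1 : (c : ℕ) ≤ a
  · rw [if_pos h1, if_pos h1, ext0]
    by_cases h2 : d l - 1 - ((a : ℕ) - c) < min (d k) (d l)
    · rw [dif_pos h2]
      simp only [pars]
      congr 1
      omega
    · rw [dif_neg h2]
      symm
      apply B_far hA
      have h3 : ¬ (d l - 1 - ((a : ℕ) - c) < d k) := by
        intro h4
        exact h2 (lt_min h4 (by omega))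
      omega
  · rw [if_neg h1, if_neg h1]

theorem pars_mk0 (α : Par d → F) : pars (mk0 α) = α := by
  ext ⟨k, l, b⟩
  simp only [pars]
  have hb1 : (b : ℕ) < d k := lt_of_lt_of_le b.2 (min_le_left _ _)
  have hb2 : (b : ℕ) < d l := lt_of_lt_of_le b.2 (min_le_right _ _)
  rw [B, dif_pos ⟨by omega, by omega⟩]
  simp only [mk0, ext0]
  rw [if_pos (Nat.zero_le _), dif_pos]
  · congr 3
    apply Fin.ext
    simp only
    omega
  · have : d l - 1 - (d l - 1 - (b : ℕ) - 0) = b := by omega
    rw [this]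
    exact b.2

/-! ### The residue maps -/

variable (d) in
/-- The blocks of size `i`. -/
abbrev Tp (i : ℕ) := {k : Fin t // d k = i}

/-- The residue of a matrix on the blocks of size `i`. -/
def res (A : Matrix (Ix d) (Ix d) F) (i : ℕ) : Matrix (Tp d i) (Tp d i) F :=
  fun l k => B A l k 0 0

theorem res_one (hd : ∀ k, 1 ≤ d k) (i : ℕ) : res (1 : Matrix (Ix d) (Ix d) F) i = 1 := by
  ext l k
  obtain ⟨l, hl⟩ := l
  obtain ⟨k, hk⟩ := k
  simp only [res]
  rw [B, dif_pos ⟨hd l, hd k⟩, Matrix.one_apply, Matrix.one_apply]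
  by_cases h : l = k
  · subst h
    simp
  · have h' : ¬ (⟨l, hl⟩ : Tp d i) = ⟨k, hk⟩ := fun h2 => h (congrArg Subtype.val h2)
    simp [h, h']

theorem res_mul (hd : ∀ k, 1 ≤ d k) {A A' : Matrix (Ix d) (Ix d) F} (hA : A * Nil F d = Nil F d * A)
    (hA' : A' * Nil F d = Nil F d * A') (i : ℕ) : res (A * A') i = res A i * res A' i := by
  ext ⟨l, hl⟩ ⟨k, hk⟩
  simp only [res, Matrix.mul_apply]
  rw [B, dif_pos ⟨hd l, hd k⟩, Matrix.mul_apply]
  symm
  apply Finset.sum_of_injOn (fun m : Tp d i => (⟨m.1, ⟨0, hd m.1⟩⟩ : Ix d))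
  · intro a _ b _ hab
    have := congrArg Sigma.fst hab
    exact Subtype.ext this
  · intro a _
    exact Finset.mem_univ _
  · rintro ⟨m, e⟩ - hnot
    by_contra hne
    have h1 : A ⟨l, ⟨0, hd l⟩⟩ ⟨m, e⟩ ≠ 0 := left_ne_zero_of_mul hne
    have h2 : A' ⟨m, e⟩ ⟨k, ⟨0, hd k⟩⟩ ≠ 0 := right_ne_zero_of_mul hne
    obtain ⟨h3, h4⟩ := entry_ne_zero hA _ _ h1
    obtain ⟨-, h6⟩ := entry_ne_zero hA' _ _ h2
    simp only at h3 h4 h6
    have h7 := hd m
    have h8 := hd l
    have h9 := hd k
    have he : (e : ℕ) = 0 := by omega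
    have hm : d m = i := by omega
    apply hnot
    simp only [Finset.coe_univ, Set.image_univ, Set.mem_range]
    refine ⟨⟨m, hm⟩, ?_⟩
    congr 1
    exact Fin.ext he.symm
  · intro m _
    obtain ⟨m, hm⟩ := m
    simp only
    rw [B, B, dif_pos ⟨hd l, hd m⟩, dif_pos ⟨hd m, hd k⟩]

theorem comm_inv {A : Matrix (Ix d) (Ix d) F} (hA : A * Nil F d = Nil F d * A) (hu : IsUnit A) :
    A⁻¹ * Nil F d = Nil F d * A⁻¹ := by
  have hdet : IsUnit A.det := (Matrix.isUnit_iff_isUnit_det A).mp hu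
  calc A⁻¹ * Nil F d = A⁻¹ * (Nil F d * (A * A⁻¹)) := by rw [Matrix.mul_nonsing_inv A hdet, mul_one]
    _ = A⁻¹ * ((Nil F d * A) * A⁻¹) := by rw [mul_assoc]
    _ = A⁻¹ * ((A * Nil F d) * A⁻¹) := by rw [hA]
    _ = (A⁻¹ * A) * (Nil F d * A⁻¹) := by simp only [mul_assoc]
    _ = Nil F d * A⁻¹ := by rw [Matrix.nonsing_inv_mul A hdet, one_mul]

/-- The invertibility criterion. -/
theorem isUnit_iff (hd : ∀ k, 1 ≤ d k) {A : Matrix (Ix d) (Ix d) F} (hA : A * Nil F d = Nil F d * A) :
    IsUnit A ↔ ∀ i, IsUnit (res A i) := by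
  classical
  constructor
  · intro hu i
    have hdet : IsUnit A.det := (Matrix.isUnit_iff_isUnit_det A).mp hu
    have h1 : res A i * res A⁻¹ i = 1 := by
      rw [← res_mul hd hA (comm_inv hA hu), Matrix.mul_nonsing_inv A hdet, res_one hd]
    exact IsUnit.of_mul_eq_one _ h1
  · intro hu
    rw [← Matrix.mulVec_injective_iff_isUnit]
    intro v v' hvv
    have key : ∀ v : Ix d → F, A.mulVec v = 0 → v = 0 := by
      intro v hv
      by_contra hne
      have hsupp : (Finset.univ.filter (fun y => v y ≠ 0)).Nonempty := by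
        obtain ⟨y, hy⟩ := Function.ne_iff.mp hne
        exact ⟨y, by simpa using hy⟩
      obtain ⟨y₀, hy₀, hmin⟩ := Finset.exists_min_image _
        (fun y : Ix d => 2 * ((y.2 : ℕ) : ℤ) - (d y.1 : ℤ)) hsupp
      simp only [Finset.mem_filter, Finset.mem_univ, true_and] at hy₀ hmin
      obtain ⟨k₀, c₀⟩ := y₀
      let i := d k₀
      have hinj := (Matrix.mulVec_injective_iff_isUnit).mpr (hu i)
      let pos : Tp d i → Ix d := fun m => ⟨m.1, ⟨c₀, by rw [m.2]; exact c₀.2⟩⟩
      let w : Tp d i → F := fun m => v (pos m)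
      have hw : (res A i).mulVec w = 0 := by
        funext l
        have h1 : ∑ y, A (pos l) y * v y = 0 := congrFun hv (pos l)
        simp only [Pi.zero_apply]
        rw [← h1, Matrix.mulVec, dotProduct]
        apply Finset.sum_of_injOn pos
        · intro a _ b _ hab
          exact Subtype.ext (congrArg Sigma.fst hab)
        · intro a _
          exact Finset.mem_univ _
        · rintro ⟨m, e⟩ - hnot
          by_contra hne2
          have h2 : A (pos l) ⟨m, e⟩ ≠ 0 := left_ne_zero_of_mul hne2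
          have h3 : v ⟨m, e⟩ ≠ 0 := right_ne_zero_of_mul hne2
          obtain ⟨h4, h5⟩ := entry_ne_zero hA _ _ h2
          have h6 := hmin ⟨m, e⟩ h3
          simp only [pos] at h4 h5 h6
          have hl := l.2
          have hc := c₀.2
          have he := e.2
          have hlpos := hd l.1
          have hmpos := hd m
          have hc₀e : (e : ℕ) = c₀ := by
            rw [hl] at h5
            simp only [i] at h5
            omega
          have hm : d m = i := by
            rw [hl] at h5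
            simp only [i] at h5 ⊢
            omega
          apply hnot
          simp only [Finset.coe_univ, Set.image_univ, Set.mem_range]
          refine ⟨⟨m, hm⟩, ?_⟩
          simp only [pos]
          congr 1
          exact Fin.ext hc₀e.symm
        · intro m _
          simp only [w, res]
          congr 1
          have h1 : (A (pos l) (pos m)) = B A l.1 m.1 c₀ c₀ := (B_apply A (pos l) (pos m)).symm
          rw [h1, entry_diag hA l.1 m.1 (l.2.trans m.2.symm) c₀ (by rw [l.2]; exact c₀.2)]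
      have hw0 : w = 0 := hinj (by rw [hw, Matrix.mulVec_zero])
      have := congrFun hw0 ⟨k₀, rfl⟩
      exact hy₀ this
    have h2 : A.mulVec (v - v') = 0 := by
      rw [Matrix.mulVec_sub, hvv, sub_self]
    exact sub_eq_zero.mp (key _ h2)

end Cfsg.Agent.Lib.Jordan.Cent
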