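import Cfsg.Agent.Lib.Jordan.FormsNec

/-!
# Invariant forms of a unipotent matrix in Jordan form: existence

The arrays `blockC`, `blockO`, and the assembly of a nondegenerate invariant form from a pairing of the blocks.
-/

set_option autoImplicit false
set_option linter.unusedSectionVars false

namespace Cfsg.Agent.Lib.Jordan.FormsEx

open Matrix Finset
open Cfsg Cfsg.Agent.Lib.Jordan.Cent Cfsg.Agent.Lib.Jordan.FormsNec

variable {F : Type*} [Field F] {t : ℕ} {d : Fin t → ℕ}

/-- An array with the recursion of the binomial coefficients. -/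
def bin : ℕ → ℕ → ℕ
  | 0, 0 => 1
  | 0, _ + 1 => 0
  | _ + 1, 0 => 0
  | p + 1, c + 1 => bin p c + bin p (c + 1)

theorem bin_zero_succ (c : ℕ) : bin 0 (c + 1) = 0 := rfl
theorem bin_succ_zero (p : ℕ) : bin (p + 1) 0 = 0 := rfl
theorem bin_succ_succ (p c : ℕ) : bin (p + 1) (c + 1) = bin p c + bin p (c + 1) := rfl

theorem bin_of_lt : ∀ p c, p < c → bin p c = 0 := by
  intro p
  induction p with
  | zero =>
    intro c hc
    obtain ⟨c, rfl⟩ : ∃ c', c = c' + 1 := ⟨c - 1, by omega⟩
    rfl
  | succ p ih =>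
    intro c hc
    obtain ⟨c, rfl⟩ : ∃ c', c = c' + 1 := ⟨c - 1, by omega⟩
    rw [bin_succ_succ, ih c (by omega), ih (c + 1) (by omega)]

theorem bin_self : ∀ p, bin p p = 1 := by
  intro p
  induction p with
  | zero => rfl
  | succ p ih => rw [bin_succ_succ, ih, bin_of_lt p (p + 1) (by omega)]

variable (F) in
/-- The form on the sum of two blocks. -/
def blockC (j a c : ℕ) : F :=
  if a < j then (-1) ^ (j - 1 - a) * (bin (j - 1 - a) c : F) else 0

theorem blockC_rel (j a c : ℕ) :
    blockC F j (a + 1) c + blockC F j a (c + 1) + blockC F j (a + 1) (c + 1) = 0 := by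
  unfold blockC
  by_cases h1 : a + 1 < j
  · obtain ⟨p, hp⟩ : ∃ p, j - 1 - a = p + 1 := ⟨j - 1 - a - 1, by omega⟩
    have hp' : j - 1 - (a + 1) = p := by omega
    rw [if_pos h1, if_pos h1, if_pos (by omega), hp', hp, bin_succ_succ, pow_succ]
    push_cast
    ring
  · by_cases h2 : a < j
    · have hp : j - 1 - a = 0 := by omega
      rw [if_neg h1, if_neg h1, if_pos h2, hp, bin_zero_succ]
      simp
    · rw [if_neg h1, if_neg h1, if_neg h2]
      simp

theorem blockC_zero (j a c : ℕ) (h : j ≤ a + c) : blockC F j a c = 0 := by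
  unfold blockC
  by_cases h2 : a < j
  · rw [if_pos h2, bin_of_lt _ _ (by omega)]
    simp
  · rw [if_neg h2]

theorem blockC_anti (j a c : ℕ) (h : a + c + 1 = j) : blockC F j a c = (-1) ^ c := by
  unfold blockC
  have h1 : j - 1 - a = c := by omega
  rw [if_pos (by omega), h1, bin_self]
  simp

/-- The array for the alternating form on a block of even size. -/
def hAlt (n : ℕ) : ℕ → ℕ → F
  | 0, _ => 0
  | 1, c => if c + 1 = n then 1 else 0
  | i + 2, c => - hAlt n i (c + 1) - hAlt n (i + 1) (c + 1)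

theorem hAlt_zero (n c : ℕ) : hAlt (F := F) n 0 c = 0 := by
  simp [hAlt]

theorem hAlt_one (n c : ℕ) : hAlt (F := F) n 1 c = if c + 1 = n then 1 else 0 := by
  simp [hAlt]

theorem hAlt_add_two (n i c : ℕ) : hAlt (F := F) n (i + 2) c = - hAlt n i (c + 1) - hAlt n (i + 1) (c + 1) := by
  rw [hAlt]

theorem hAlt_far (n : ℕ) : ∀ i c, n ≤ c + i / 2 → hAlt (F := F) n i c = 0 := by
  intro i
  induction i using Nat.strong_induction_on with
  | _ i ih =>
    intro c h
    match i, ih, h with
    | 0, _, _ => exact hAlt_zero n c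
    | 1, _, h =>
      rw [hAlt_one, if_neg]
      omega
    | i + 2, ih, h =>
      rw [hAlt_add_two, ih i (by omega) (c + 1) (by omega), ih (i + 1) (by omega) (c + 1) (by omega)]
      simp

theorem hAlt_anti (n : ℕ) : ∀ r c, c + r + 1 = n → hAlt (F := F) n (2 * r + 1) c = (-1) ^ r := by
  intro r
  induction r with
  | zero =>
    intro c h
    rw [hAlt_one, if_pos (by omega)]
    simp
  | succ r ih =>
    intro c h
    have h1 : 2 * (r + 1) + 1 = (2 * r + 1) + 2 := by ring
    rw [h1, hAlt_add_two, ih (c + 1) (by omega), hAlt_far n (2 * r + 1 + 1) (c + 1) (by omega), pow_succ]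
    ring

/-- The alternating form on a block of even size `2 n`. -/
def blockA (n a c : ℕ) : F :=
  if c ≤ a then hAlt n (a - c) c else - hAlt n (c - a) a

theorem blockA_rel (n a c : ℕ) :
    blockA (F := F) n (a + 1) c + blockA n a (c + 1) + blockA n (a + 1) (c + 1) = 0 := by
  unfold blockA
  rcases lt_trichotomy a c with h | h | h
  · obtain ⟨i, rfl⟩ : ∃ i, c = a + i + 1 := ⟨c - a - 1, by omega⟩
    have h0 : (if a + i + 1 ≤ a + 1 then hAlt (F := F) n (a + 1 - (a + i + 1)) (a + i + 1)
        else - hAlt n (a + i + 1 - (a + 1)) (a + 1)) = - hAlt n i (a + 1) := by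
      by_cases hi : i = 0
      · subst hi
        rw [if_pos (by omega)]
        have h1 : a + 1 - (a + 0 + 1) = 0 := by omega
        rw [h1, hAlt_zero]
        simp
      · rw [if_neg (by omega)]
        have h1 : a + i + 1 - (a + 1) = i := by omega
        rw [h1]
    rw [h0, if_neg (by omega), if_neg (by omega)]
    have h2 : a + i + 1 + 1 - a = i + 2 := by omega
    have h3 : a + i + 1 + 1 - (a + 1) = i + 1 := by omega
    rw [h2, h3, hAlt_add_two]
    ring
  · subst h
    rw [if_pos (by omega), if_neg (by omega), if_pos (by omega)]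
    have h1 : a + 1 - a = 1 := by omega
    have h2 : a + 1 - (a + 1) = 0 := by omega
    rw [h1, h2, hAlt_zero]
    ring
  · obtain ⟨i, rfl⟩ : ∃ i, a = c + i + 1 := ⟨a - c - 1, by omega⟩
    rw [if_pos (by omega), if_pos (by omega), if_pos (by omega)]
    have h1 : c + i + 1 + 1 - c = i + 2 := by omega
    have h2 : c + i + 1 - (c + 1) = i := by omega
    have h3 : c + i + 1 + 1 - (c + 1) = i + 1 := by omega
    rw [h1, h2, h3, hAlt_add_two]
    ring

theorem blockA_self (n a : ℕ) : blockA (F := F) n a a = 0 := by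
  unfold blockA
  rw [if_pos le_rfl, Nat.sub_self, hAlt_zero]

theorem blockA_swap (n a c : ℕ) : blockA (F := F) n c a = - blockA n a c := by
  unfold blockA
  rcases lt_trichotomy a c with h | h | h
  · rw [if_pos (by omega), if_neg (by omega), neg_neg]
  · subst h
    rw [if_pos le_rfl, Nat.sub_self, hAlt_zero]
    simp
  · rw [if_neg (by omega), if_pos (by omega)]

theorem blockA_far (n a c : ℕ) (h : 2 * n ≤ a + c) : blockA (F := F) n a c = 0 := by
  unfold blockA
  by_cases h1 : c ≤ a
  · rw [if_pos h1, hAlt_far]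
    omega
  · rw [if_neg h1, hAlt_far]
    · simp
    · omega

theorem blockA_anti (n a c : ℕ) (h : a + c + 1 = 2 * n) : blockA (F := F) n a c ≠ 0 := by
  unfold blockA
  have hne : ((-1 : F)) ^ ((a + c) / 2) ≠ 0 := pow_ne_zero _ (by simp)
  by_cases h1 : c ≤ a
  · rw [if_pos h1]
    obtain ⟨r, hr⟩ : ∃ r, a - c = 2 * r + 1 := ⟨(a - c - 1) / 2, by omega⟩
    rw [hr, hAlt_anti n r c (by omega)]
    exact pow_ne_zero _ (by simp)
  · rw [if_neg h1]
    obtain ⟨r, hr⟩ : ∃ r, c - a = 2 * r + 1 := ⟨(c - a - 1) / 2, by omega⟩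
    rw [hr, hAlt_anti n r a (by omega)]
    exact neg_ne_zero.mpr (pow_ne_zero _ (by simp))

variable (F) in
/-- The symmetric form on a block of odd size. -/
def blockO (j a c : ℕ) : F := blockC F j a c + blockC F j c a

theorem blockO_rel (j a c : ℕ) :
    blockO F j (a + 1) c + blockO F j a (c + 1) + blockO F j (a + 1) (c + 1) = 0 := by
  unfold blockO
  have h1 := blockC_rel (F := F) j a c
  have h2 := blockC_rel (F := F) j c a
  linear_combination h1 + h2

theorem blockO_swap (j a c : ℕ) : blockO F j c a = blockO F j a c := add_comm _ _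

theorem blockO_far (j a c : ℕ) (h : j ≤ a + c) : blockO F j a c = 0 := by
  unfold blockO
  rw [blockC_zero _ _ _ h, blockC_zero _ _ _ (by omega), add_zero]

theorem blockO_anti (h2 : (2 : F) ≠ 0) (j a c : ℕ) (hj : Odd j) (h : a + c + 1 = j) : blockO F j a c ≠ 0 := by
  unfold blockO
  rw [blockC_anti j a c h, blockC_anti j c a (by omega)]
  obtain ⟨r, hr⟩ := hj
  have h3 : ((-1 : F)) ^ a = (-1) ^ c := by
    have h4 : a % 2 = c % 2 := by omega
    rw [← Nat.mod_add_div a 2, ← Nat.mod_add_div c 2, h4, pow_add, pow_add, pow_mul, pow_mul]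
    simp
  rw [h3, ← two_mul]
  exact mul_ne_zero h2 (pow_ne_zero _ (by simp))

/-! ### Assembly -/

section Assembly

variable (σ : Fin t → Fin t) (ε : F) (Sg : ℕ → ℕ → ℕ → F)

/-- The family of blocks of a form. -/
def Phi (l k : Fin t) (a c : ℕ) : F :=
  if l = σ k then (if l = k then Sg (d k) a c else if l < k then blockC F (d k) a c else ε * blockC F (d k) c a) else 0

/-- The form. -/
def Gm : Matrix (Ix d) (Ix d) F := fun x y => Phi (d := d) σ ε Sg x.1 y.1 x.2 y.2

variable {σ ε Sg} (hσ : ∀ k, σ (σ k) = k) (hdσ : ∀ k, d (σ k) = d k) (hε : ε * ε = 1)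
  (hrel : ∀ k, σ k = k → ∀ a c, Sg (d k) (a + 1) c + Sg (d k) a (c + 1) + Sg (d k) (a + 1) (c + 1) = 0)
  (hfar : ∀ k, σ k = k → ∀ a c, d k ≤ a + c → Sg (d k) a c = 0)
  (hanti : ∀ k, σ k = k → ∀ a c, a + c + 1 = d k → Sg (d k) a c ≠ 0)
  (hswap : ∀ k, σ k = k → ∀ a c, Sg (d k) c a = ε * Sg (d k) a c)

include hdσ hfar in
theorem Phi_far_right (l k : Fin t) (a c : ℕ) (h : d k ≤ a + c) : Phi (d := d) σ ε Sg l k a c = 0 := by
  unfold Phi
  by_cases h1 : l = σ k
  · rw [if_pos h1]
    by_cases h2 : l = k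
    · rw [if_pos h2]
      exact hfar k (by rw [← h1, h2]) a c h
    · rw [if_neg h2]
      by_cases h3 : l < k
      · rw [if_pos h3, blockC_zero _ _ _ h]
      · rw [if_neg h3, blockC_zero _ _ _ (by omega), mul_zero]
  · rw [if_neg h1]

include hdσ hfar in
theorem Phi_far_left (l k : Fin t) (a c : ℕ) (h : d l ≤ a + c) : Phi (d := d) σ ε Sg l k a c = 0 := by
  by_cases h1 : l = σ k
  · apply Phi_far_right hdσ hfar
    rw [← hdσ k, ← h1]
    exact h
  · unfold Phi
    rw [if_neg h1]

include hdσ hfar in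
theorem B_Gm (l k : Fin t) (a c : ℕ) : B (Gm (d := d) σ ε Sg) l k a c = Phi (d := d) σ ε Sg l k a c := by
  by_cases h : a < d l ∧ c < d k
  · rw [B, dif_pos h]
    rfl
  · rw [B, dif_neg h]
    by_cases h2 : a < d l
    · rw [Phi_far_right hdσ hfar]
      have : ¬ c < d k := fun h3 => h ⟨h2, h3⟩
      omega
    · rw [Phi_far_left hdσ hfar]
      omega

include hrel in
theorem Phi_rel (l k : Fin t) (a c : ℕ) :
    Phi (d := d) σ ε Sg l k (a + 1) c + Phi (d := d) σ ε Sg l k a (c + 1) + Phi (d := d) σ ε Sg l k (a + 1) (c + 1) = 0 := by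
  unfold Phi
  by_cases h1 : l = σ k
  · simp only [if_pos h1]
    by_cases h2 : l = k
    · simp only [if_pos h2]
      exact hrel k (by rw [← h1, h2]) a c
    · simp only [if_neg h2]
      by_cases h3 : l < k
      · simp only [if_pos h3]
        exact blockC_rel _ _ _
      · simp only [if_neg h3]
        have := blockC_rel (F := F) (d k) c a
        linear_combination ε * this
  · simp [if_neg h1]

include hdσ hfar hrel in
theorem Gm_inv : Inv (Gm (d := d) σ ε Sg) := by
  rw [inv_iff]
  ext ⟨l, a⟩ ⟨k, c⟩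
  simp only [Matrix.add_apply, Matrix.zero_apply]
  rw [Nil_tr_mul, mul_Nil_B, mul_Nil_B]
  have h2 : B ((Nil F d)ᵀ * Gm (d := d) σ ε Sg) l k a (c + 1) = B (Gm (d := d) σ ε Sg) l k (a + 1) (c + 1) := by
    by_cases h : c + 1 < d k
    · rw [B, dif_pos ⟨a.2, h⟩, Nil_tr_mul]
    · rw [B_of_le_right _ (by omega), B_of_le_right _ (by omega)]
  rw [h2, B_Gm hdσ hfar, B_Gm hdσ hfar, B_Gm hdσ hfar]
  exact Phi_rel hrel l k a c

include hσ hdσ hfar hanti in
theorem Gm_isUnit (hε0 : ε ≠ 0) : IsUnit (Gm (d := d) σ ε Sg) := by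
  classical
  rw [← Matrix.mulVec_injective_iff_isUnit]
  have key : ∀ v : Ix d → F, (Gm (d := d) σ ε Sg).mulVec v = 0 → v = 0 := by
    intro v hv
    have main : ∀ c, ∀ (k : Fin t) (hc : c < d k), v ⟨k, ⟨c, hc⟩⟩ = 0 := by
      intro c
      induction c using Nat.strong_induction_on with
      | _ c ih =>
        intro k hc
        let l := σ k
        have hl : d l = d k := hdσ k
        have hlk : σ l = k := hσ k
        let a := d k - 1 - c
        have ha : a < d l := by
          simp only [a]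
          omega
        have h1 : ∑ y, Gm (d := d) σ ε Sg ⟨l, ⟨a, ha⟩⟩ y * v y = 0 := congrFun hv ⟨l, ⟨a, ha⟩⟩
        rw [Finset.sum_eq_single (⟨k, ⟨c, hc⟩⟩ : Ix d)] at h1
        · have h2 : Gm (d := d) σ ε Sg ⟨l, ⟨a, ha⟩⟩ ⟨k, ⟨c, hc⟩⟩ ≠ 0 := by
            show Phi (d := d) σ ε Sg l k a c ≠ 0
            unfold Phi
            have hac : a + c + 1 = d k := by
              simp only [a]
              omega
            rw [if_pos rfl]
            by_cases h3 : l = k
            · rw [if_pos h3]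
              exact hanti k h3 a c hac
            · rw [if_neg h3]
              by_cases h4 : l < k
              · rw [if_pos h4, blockC_anti _ _ _ hac]
                exact pow_ne_zero _ (by simp)
              · rw [if_neg h4, blockC_anti _ _ _ (by omega)]
                exact mul_ne_zero hε0 (pow_ne_zero _ (by simp))
          exact (mul_eq_zero.mp h1).resolve_left h2
        · rintro ⟨m, e⟩ - hne
          by_cases hm : m = k
          · subst hm
            have hec : (e : ℕ) ≠ c := fun h => hne (by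
              congr 1
              exact Fin.ext h)
            by_cases hlt : (e : ℕ) < c
            · have := ih e hlt m e.2
              simp only [Fin.eta] at this
              rw [this, mul_zero]
            · have h3 : Gm (d := d) σ ε Sg ⟨l, ⟨a, ha⟩⟩ ⟨m, e⟩ = 0 := by
                show Phi (d := d) σ ε Sg l m a e = 0
                apply Phi_far_right hdσ hfar
                simp only [a]
                omega
              rw [h3, zero_mul]
          · have h3 : Gm (d := d) σ ε Sg ⟨l, ⟨a, ha⟩⟩ ⟨m, e⟩ = 0 := by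
              show Phi (d := d) σ ε Sg l m a e = 0
              unfold Phi
              rw [if_neg]
              intro h4
              apply hm
              have h5 : σ l = σ (σ m) := congrArg σ h4
              rw [hlk, hσ m] at h5
              exact h5.symm
            rw [h3, zero_mul]
        · intro hh
          exact absurd (Finset.mem_univ _) hh
    funext x
    obtain ⟨k, c⟩ := x
    exact main c k c.2
  intro v v' hvv
  have h2 : (Gm (d := d) σ ε Sg).mulVec (v - v') = 0 := by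
    rw [Matrix.mulVec_sub, hvv, sub_self]
  exact sub_eq_zero.mp (key _ h2)

include hσ hdσ hε hswap in
theorem Phi_swap (l k : Fin t) (a c : ℕ) : Phi (d := d) σ ε Sg k l c a = ε * Phi (d := d) σ ε Sg l k a c := by
  unfold Phi
  by_cases h1 : l = σ k
  · have h2 : k = σ l := by rw [h1, hσ]
    rw [if_pos h1, if_pos h2]
    by_cases h3 : l = k
    · subst h3
      simp only [if_true]
      exact hswap l h1.symm _ _
    · have h4 : ¬ k = l := fun h => h3 h.symm
      rw [if_neg h3, if_neg h4]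
      have hdl : d l = d k := by rw [h1, hdσ]
      by_cases h5 : l < k
      · have h6 : ¬ k < l := by omega
        rw [if_pos h5, if_neg h6, hdl]
      · have h6 : k < l := by omega
        rw [if_neg h5, if_pos h6, hdl, ← mul_assoc, hε, one_mul]
  · have h2 : ¬ k = σ l := fun h => h1 (by rw [h, hσ])
    rw [if_neg h1, if_neg h2, mul_zero]

include hσ hdσ hε hswap in
theorem Gm_swap (x y : Ix d) : Gm (d := d) σ ε Sg y x = ε * Gm (d := d) σ ε Sg x y :=
  Phi_swap hσ hdσ hε hswap x.1 y.1 x.2 y.2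

include hσ in
theorem Gm_self (hS : ∀ k, σ k = k → ∀ a, Sg (d k) a a = 0) (x : Ix d) : Gm (d := d) σ ε Sg x x = 0 := by
  obtain ⟨k, a⟩ := x
  show Phi (d := d) σ ε Sg k k a a = 0
  unfold Phi
  by_cases h1 : k = σ k
  · rw [if_pos h1, if_pos rfl]
    exact hS k h1.symm a
  · rw [if_neg h1]

end Assembly

/-- A pairing of the blocks. -/
theorem exists_pairing (hd : True) (P : ℕ → Prop) (hP : ∀ j, P j → Even (Finset.univ.filter (fun k : Fin t => d k = j)).card) :
    ∃ σ : Fin t → Fin t, (∀ k, σ (σ k) = k) ∧ (∀ k, d (σ k) = d k) ∧ ∀ k, σ k = k → ¬ P (d k) := by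
  classical
  have hτ : ∀ j, ∃ τ : Tp d j → Tp d j, (∀ x, τ (τ x) = x) ∧ (P j → ∀ x, τ x ≠ x) := by
    intro j
    by_cases hj : P j
    · obtain ⟨r, hr⟩ := hP j hj
      have hc : Fintype.card (Tp d j) = Fintype.card (Fin r ⊕ Fin r) := by
        rw [Fintype.card_subtype, hr, Fintype.card_sum, Fintype.card_fin]
      let e := Fintype.equivOfCardEq hc
      refine ⟨fun x => e.symm (Sum.swap (e x)), ?_, fun _ x hx => ?_⟩
      · intro x
        simp
      · have h1 : Sum.swap (e x) = e x := by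
          have := congrArg e hx
          simpa using this
        rcases he : e x with i | i <;> simp [he] at h1
    · exact ⟨id, fun x => rfl, fun h => absurd h hj⟩
  choose τ hτ1 hτ2 using hτ
  have hτ3 : ∀ (j : ℕ) (x : Tp d j), ((τ (d x.1) ⟨x.1, rfl⟩ : Tp d (d x.1)) : Fin t) = (τ j x).1 := by
    rintro j ⟨x, rfl⟩
    rfl
  let σ : Fin t → Fin t := fun k => (τ (d k) ⟨k, rfl⟩).1
  have hdσ : ∀ k, d (σ k) = d k := fun k => (τ (d k) ⟨k, rfl⟩).2
  refine ⟨σ, ?_, hdσ, ?_⟩
  · intro k
    show ((τ (d (σ k)) ⟨σ k, rfl⟩ : Tp d (d (σ k))) : Fin t) = k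
    rw [hτ3 (d k) (τ (d k) ⟨k, rfl⟩), hτ1]
  · intro k hk hPk
    apply hτ2 (d k) hPk ⟨k, rfl⟩
    exact Subtype.ext hk

/-- Existence of an alternating form. -/
theorem exists_alt_form (hpar : ∀ j, Odd j → Even (Finset.univ.filter (fun k : Fin t => d k = j)).card) :
    ∃ G : Matrix (Ix d) (Ix d) F, Inv G ∧ IsUnit G ∧ (∀ x y, G y x = - G x y) ∧ ∀ x, G x x = 0 := by
  obtain ⟨σ, hσ, hdσ, hfix⟩ := exists_pairing (d := d) trivial Odd hpar
  have hev : ∀ k, σ k = k → 2 * (d k / 2) = d k := by
    intro k hk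
    have := hfix k hk
    rw [Nat.not_odd_iff_even] at this
    obtain ⟨r, hr⟩ := this
    omega
  let Sg : ℕ → ℕ → ℕ → F := fun j a c => blockA (j / 2) a c
  have hε : (-1 : F) * (-1) = 1 := by ring
  have hrel : ∀ k, σ k = k → ∀ a c, Sg (d k) (a + 1) c + Sg (d k) a (c + 1) + Sg (d k) (a + 1) (c + 1) = 0 :=
    fun k _ a c => blockA_rel _ a c
  have hfar : ∀ k, σ k = k → ∀ a c, d k ≤ a + c → Sg (d k) a c = 0 := fun k hk a c h =>
    blockA_far _ a c (by rw [hev k hk]; exact h)
  have hanti : ∀ k, σ k = k → ∀ a c, a + c + 1 = d k → Sg (d k) a c ≠ 0 := fun k hk a c h =>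
    blockA_anti _ a c (by rw [hev k hk]; exact h)
  have hswap : ∀ k, σ k = k → ∀ a c, Sg (d k) c a = (-1) * Sg (d k) a c := fun k _ a c => by
    show blockA _ c a = _
    rw [blockA_swap, neg_one_mul]
  refine ⟨Gm σ (-1) Sg, Gm_inv hdσ hrel hfar, Gm_isUnit hσ hdσ hfar hanti (by simp), ?_, ?_⟩
  · intro x y
    rw [Gm_swap hσ hdσ hε hswap x y, neg_one_mul]
  · exact Gm_self hσ (fun k _ a => blockA_self _ a)

/-- Existence of a symmetric form. -/
theorem exists_sym_form (h2 : (2 : F) ≠ 0) (hd : ∀ k, 1 ≤ d k)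
    (hpar : ∀ j, Even j → 0 < j → Even (Finset.univ.filter (fun k : Fin t => d k = j)).card) :
    ∃ G : Matrix (Ix d) (Ix d) F, Inv G ∧ IsUnit G ∧ (∀ x y, G y x = G x y) := by
  obtain ⟨σ, hσ, hdσ, hfix⟩ := exists_pairing (d := d) trivial (fun j => Even j ∧ 0 < j) (fun j hj => hpar j hj.1 hj.2)
  have hodd : ∀ k, σ k = k → Odd (d k) := by
    intro k hk
    have := hfix k hk
    rw [← Nat.not_even_iff_odd]
    intro h
    exact this ⟨h, hd k⟩
  let Sg : ℕ → ℕ → ℕ → F := fun j a c => blockO F j a c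
  have hε : (1 : F) * 1 = 1 := by ring
  have hrel : ∀ k, σ k = k → ∀ a c, Sg (d k) (a + 1) c + Sg (d k) a (c + 1) + Sg (d k) (a + 1) (c + 1) = 0 :=
    fun k _ a c => blockO_rel _ a c
  have hfar : ∀ k, σ k = k → ∀ a c, d k ≤ a + c → Sg (d k) a c = 0 := fun k _ a c h =>
    blockO_far _ a c h
  have hanti : ∀ k, σ k = k → ∀ a c, a + c + 1 = d k → Sg (d k) a c ≠ 0 := fun k hk a c h =>
    blockO_anti h2 _ a c (hodd k hk) h
  have hswap : ∀ k, σ k = k → ∀ a c, Sg (d k) c a = 1 * Sg (d k) a c := fun k _ a c => by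
    show blockO F _ c a = _
    rw [blockO_swap, one_mul]
  refine ⟨Gm σ 1 Sg, Gm_inv hdσ hrel hfar, Gm_isUnit hσ hdσ hfar hanti (by simp), ?_⟩
  intro x y
  rw [Gm_swap hσ hdσ hε hswap x y, one_mul]

end Cfsg.Agent.Lib.Jordan.FormsEx
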