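import Cfsg.Agent.Lib.Jordan.FormsEx
import Cfsg.Prelude.Def_ClassicalGeometry

/-!
# Invariant forms of a unipotent matrix in Jordan form: transfer to the statements

From a conjugacy to an invariant form on the index type of the Jordan blocks, from a quadratic form to its polar
matrix, and back from invariant quadratic forms on the index type of the blocks.
-/

set_option autoImplicit false
set_option linter.unusedSectionVars false

namespace Cfsg.Agent.Lib.Jordan.FormsFin

open Matrix Finset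
open Cfsg Cfsg.Agent.Lib.Jordan.Cent Cfsg.Agent.Lib.Jordan.FormsNec Cfsg.Agent.Lib.Jordan.FormsEx

variable {F : Type*} [Field F] {t : ℕ} {d : Fin t → ℕ}

theorem ext_dot {ι' : Type*} [Fintype ι'] [DecidableEq ι'] {M N : Matrix ι' ι' F}
    (h : ∀ u v : ι' → F, u ⬝ᵥ M *ᵥ v = u ⬝ᵥ N *ᵥ v) : M = N := by
  ext x y
  have := h (Pi.single x 1) (Pi.single y 1)
  simpa using this

theorem dot_mulVec_mulVec {ι' : Type*} [Fintype ι'] (A G₀ : Matrix ι' ι' F) (u v : ι' → F) :
    (A *ᵥ u) ⬝ᵥ G₀ *ᵥ (A *ᵥ v) = u ⬝ᵥ (Aᵀ * G₀ * A) *ᵥ v := by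
  rw [← Matrix.mulVec_mulVec, ← Matrix.mulVec_mulVec, Matrix.dotProduct_mulVec u, Matrix.vecMul_transpose]

section Conj

variable {ι' : Type*} [Fintype ι'] [DecidableEq ι'] (e : Ix d ≃ ι')

/-- The invariant form coming from a conjugate of the Jordan matrix. -/
theorem forms_of_conj {A G₀ : Matrix ι' ι' F} (h : Aᵀ * G₀ * A = G₀) (hu : IsUnit G₀)
    (hc : IsConj (Matrix.reindex e e (jordanTypeMatrix d F)) A) :
    ∃ G : Matrix (Ix d) (Ix d) F, FormsNec.Inv G ∧ IsUnit G ∧
      (∀ ε : F, (∀ x y, G₀ y x = ε * G₀ x y) → ∀ x y, G y x = ε * G x y) ∧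
      ((∀ v, v ⬝ᵥ G₀ *ᵥ v = 0) → ∀ x, G x x = 0) := by
  obtain ⟨c, hc⟩ := hc
  have hc' : (c : Matrix ι' ι' F) * Matrix.reindex e e (jordanTypeMatrix d F) = A * c := hc
  set J' := Matrix.reindex e e (jordanTypeMatrix d F) with hJ'
  let G' : Matrix ι' ι' F := (c : Matrix ι' ι' F)ᵀ * G₀ * c
  have hJJ : jordanTypeMatrix d F = J'.submatrix e e := by
    ext x y
    simp [hJ']
  have hinv' : J'ᵀ * G' * J' = G' := by
    calc J'ᵀ * G' * J' = ((c : Matrix ι' ι' F) * J')ᵀ * G₀ * ((c : Matrix ι' ι' F) * J') := by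
          simp only [G', Matrix.transpose_mul, Matrix.mul_assoc]
      _ = (A * (c : Matrix ι' ι' F))ᵀ * G₀ * (A * (c : Matrix ι' ι' F)) := by rw [hc']
      _ = (c : Matrix ι' ι' F)ᵀ * (Aᵀ * G₀ * A) * c := by
          simp only [Matrix.transpose_mul, Matrix.mul_assoc]
      _ = G' := by rw [h]
  refine ⟨G'.submatrix e e, ?_, ?_, ?_, ?_⟩
  · unfold FormsNec.Inv
    rw [hJJ, Matrix.transpose_submatrix, Matrix.submatrix_mul_equiv, Matrix.submatrix_mul_equiv, hinv']
  · rw [Matrix.isUnit_iff_isUnit_det, Matrix.det_submatrix_equiv_self, Matrix.det_mul, Matrix.det_mul,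
      Matrix.det_transpose]
    have h1 : IsUnit (c : Matrix ι' ι' F).det := (Matrix.isUnit_iff_isUnit_det _).mp c.isUnit
    have h2 : IsUnit G₀.det := (Matrix.isUnit_iff_isUnit_det _).mp hu
    exact (h1.mul h2).mul h1
  · intro ε hε x y
    have h1 : G₀ᵀ = ε • G₀ := by
      ext a b
      exact hε a b
    have h2 : G'ᵀ = ε • G' := by
      simp only [G', Matrix.transpose_mul, Matrix.transpose_transpose, Matrix.mul_assoc]
      rw [← Matrix.mul_assoc _ G₀ᵀ, h1]
      simp only [Matrix.smul_mul, Matrix.mul_smul, Matrix.mul_assoc]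
    have h3 := congrFun (congrFun h2 (e x)) (e y)
    simpa using h3
  · intro halt x
    have h1 := halt ((c : Matrix ι' ι' F) *ᵥ Pi.single (e x) 1)
    rw [dot_mulVec_mulVec] at h1
    simpa [G'] using h1

end Conj

/-! ### Quadratic forms and their polar matrices -/

section Polar

variable {ι' : Type*} [Fintype ι'] [DecidableEq ι']

/-- The polar matrix. -/
noncomputable def polarMat (Q : QuadraticForm F (ι' → F)) : Matrix ι' ι' F :=
  LinearMap.BilinForm.toMatrix' (QuadraticMap.polarBilin Q)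

theorem polarMat_dot (Q : QuadraticForm F (ι' → F)) (u v : ι' → F) :
    u ⬝ᵥ polarMat Q *ᵥ v = QuadraticMap.polar Q u v := by
  rw [← Matrix.toBilin'_apply', polarMat, Matrix.toBilin'_toMatrix']
  rfl

theorem polarMat_isUnit (Q : QuadraticForm F (ι' → F)) (hQ : (QuadraticMap.polarBilin Q).Nondegenerate) :
    IsUnit (polarMat Q) := by
  rw [← Matrix.mulVec_injective_iff_isUnit]
  intro v v' hvv
  have h1 : polarMat Q *ᵥ (v - v') = 0 := by
    rw [Matrix.mulVec_sub, hvv, sub_self]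
  have h2 : v - v' = 0 := by
    apply hQ.2
    intro u
    show QuadraticMap.polar Q u (v - v') = 0
    rw [← polarMat_dot, h1, dotProduct_zero]
  exact sub_eq_zero.mp h2

theorem polarMat_iso (Q : QuadraticForm F (ι' → F)) (A : Matrix ι' ι' F) (hA : ∀ u, Q (A *ᵥ u) = Q u) :
    Aᵀ * polarMat Q * A = polarMat Q := by
  apply ext_dot
  intro u v
  rw [← dot_mulVec_mulVec, polarMat_dot, polarMat_dot]
  simp only [QuadraticMap.polar, ← Matrix.mulVec_add, hA]

theorem polarMat_symm (Q : QuadraticForm F (ι' → F)) (x y : ι') : polarMat Q y x = polarMat Q x y := by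
  have h1 := polarMat_dot Q (Pi.single x 1) (Pi.single y 1)
  have h2 := polarMat_dot Q (Pi.single y 1) (Pi.single x 1)
  rw [QuadraticMap.polar_comm] at h2
  simp only [single_one_dotProduct, Matrix.mulVec_single_one, Matrix.col_apply] at h1 h2
  rw [h2, h1]

/-- The polar form of the quadratic form of a matrix. -/
theorem polar_toQF (U : Matrix ι' ι' F) (u v : ι' → F) :
    QuadraticMap.polar (Matrix.toQuadraticForm' U) u v = u ⬝ᵥ (U + Uᵀ) *ᵥ v := by
  have h : ∀ w, Matrix.toQuadraticForm' U w = w ⬝ᵥ U *ᵥ w := by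
    intro w
    simp [Matrix.toQuadraticForm', Matrix.toLinearMap₂'_apply']
  have h2 : u ⬝ᵥ Uᵀ *ᵥ v = v ⬝ᵥ U *ᵥ u := by
    rw [Matrix.dotProduct_mulVec, Matrix.vecMul_transpose, dotProduct_comm]
  simp only [QuadraticMap.polar, h, Matrix.add_mulVec, dotProduct_add, add_dotProduct, Matrix.mulVec_add, h2]
  ring

theorem nondeg_toQF (U : Matrix ι' ι' F) (hu : IsUnit (U + Uᵀ)) :
    (QuadraticMap.polarBilin (Matrix.toQuadraticForm' U)).Nondegenerate := by
  constructor
  · intro x hx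
    have h1 : x ᵥ* (U + Uᵀ) = 0 := by
      funext y
      have h2 := hx (Pi.single y 1)
      change QuadraticMap.polar (Matrix.toQuadraticForm' U) x (Pi.single y 1) = 0 at h2
      rw [polar_toQF, Matrix.dotProduct_mulVec] at h2
      simpa using h2
    have h3 := (Matrix.vecMul_injective_iff_isUnit).mpr hu
    apply h3
    show x ᵥ* (U + Uᵀ) = 0 ᵥ* (U + Uᵀ)
    rw [h1, Matrix.zero_vecMul]
  · intro y hy
    have h1 : (U + Uᵀ) *ᵥ y = 0 := by
      funext x
      have h2 := hy (Pi.single x 1)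
      change QuadraticMap.polar (Matrix.toQuadraticForm' U) (Pi.single x 1) y = 0 at h2
      rw [polar_toQF] at h2
      simpa using h2
    have h3 := (Matrix.mulVec_injective_iff_isUnit).mpr hu
    exact h3 (by rw [h1, Matrix.mulVec_zero])

end Polar

/-- Transfer of an invariant quadratic form from the index type of the blocks. -/
theorem exists_Q_of_inv {n : ℕ} (Qt : QuadraticForm F (Ix d → F))
    (hJ : ∀ v, Qt (jordanTypeMatrix d F *ᵥ v) = Qt v)
    (hnd : (QuadraticMap.polarBilin Qt).Nondegenerate)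
    (hJu : IsUnit (jordanTypeMatrix d F)) (e : Ix d ≃ Fin n) :
    ∃ Q : QuadraticForm F (Fin n → F), (QuadraticMap.polarBilin Q).Nondegenerate ∧
      ∃ e : ((k : Fin t) × Fin (d k)) ≃ Fin n, ∃ A : ↥(Cfsg.isometryGroup F ⇑Q),
        IsConj (Matrix.reindex e e (Cfsg.jordanTypeMatrix d F))
          ((A : Matrix.GeneralLinearGroup (Fin n) F) : Matrix (Fin n) (Fin n) F) := by
  classical
  let ρ : (Fin n → F) ≃ₗ[F] (Ix d → F) := LinearEquiv.funCongrLeft F F e
  have hρ : ∀ u x, ρ u x = u (e x) := fun u x => rfl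
  let Q : QuadraticForm F (Fin n → F) := Qt.comp ρ.toLinearMap
  have hQ : ∀ u, Q u = Qt (ρ u) := fun u => rfl
  have hpol : ∀ u v, QuadraticMap.polar Q u v = QuadraticMap.polar Qt (ρ u) (ρ v) := by
    intro u v
    simp only [QuadraticMap.polar, hQ, map_add]
  refine ⟨Q, ⟨?_, ?_⟩, e, ?_⟩
  · intro x hx
    have h1 : ρ x = 0 := by
      apply hnd.1
      intro y
      have h2 := hx (ρ.symm y)
      change QuadraticMap.polar Q x (ρ.symm y) = 0 at h2
      rw [hpol, ρ.apply_symm_apply] at h2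
      exact h2
    exact ρ.map_eq_zero_iff.mp h1
  · intro y hy
    have h1 : ρ y = 0 := by
      apply hnd.2
      intro x
      have h2 := hy (ρ.symm x)
      change QuadraticMap.polar Q (ρ.symm x) y = 0 at h2
      rw [hpol, ρ.apply_symm_apply] at h2
      exact h2
    exact ρ.map_eq_zero_iff.mp h1
  · have hu : IsUnit (Matrix.reindex e e (jordanTypeMatrix d F)) := by
      rw [Matrix.isUnit_iff_isUnit_det, Matrix.det_reindex_self, ← Matrix.isUnit_iff_isUnit_det]
      exact hJu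
    have hmem : ∀ u : Fin n → F, ρ ((Matrix.reindex e e (jordanTypeMatrix d F)) *ᵥ u) = jordanTypeMatrix d F *ᵥ ρ u := by
      intro u
      funext x
      rw [hρ]
      simp only [Matrix.reindex_apply]
      rw [Matrix.submatrix_mulVec_equiv]
      simp only [Function.comp, Equiv.symm_symm, Equiv.symm_apply_apply]
      rfl
    refine ⟨⟨hu.unit, ?_⟩, ?_⟩
    · intro u _
      show Q ((Matrix.reindex e e (jordanTypeMatrix d F)) *ᵥ u) = Q u
      rw [hQ, hQ, hmem, hJ]
    · exact IsConj.refl _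

theorem J_isUnit_of_inv {G : Matrix (Ix d) (Ix d) F} (hG : FormsNec.Inv G) (hu : IsUnit G) : IsUnit (jordanTypeMatrix d F) := by
  have hdet : IsUnit G.det := (Matrix.isUnit_iff_isUnit_det G).mp hu
  have h1 : G⁻¹ * ((jordanTypeMatrix d F)ᵀ * G * jordanTypeMatrix d F) = 1 := by
    rw [hG, Matrix.nonsing_inv_mul G hdet]
  have h2 : (G⁻¹ * (jordanTypeMatrix d F)ᵀ * G) * jordanTypeMatrix d F = 1 := by
    simpa only [Matrix.mul_assoc] using h1
  exact (Matrix.isUnit_iff_isUnit_det _).mpr (Matrix.isUnit_det_of_left_inverse h2)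

/-- The invariance for a symmetric form. -/
theorem toQF_inv {G : Matrix (Ix d) (Ix d) F} (hG : FormsNec.Inv G) (v : Ix d → F) :
    Matrix.toQuadraticForm' G (jordanTypeMatrix d F *ᵥ v) = Matrix.toQuadraticForm' G v := by
  have h : ∀ w, Matrix.toQuadraticForm' G w = w ⬝ᵥ G *ᵥ w := by
    intro w
    simp [Matrix.toQuadraticForm', Matrix.toLinearMap₂'_apply']
  rw [h, h, dot_mulVec_mulVec, hG]

/-! ### Characteristic two -/

section CharTwo

variable [CharP F 2] {G : Matrix (Ix d) (Ix d) F}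

/-- The diagonal of the matrix of the quadratic form. -/
def qd (G : Matrix (Ix d) (Ix d) F) (x : Ix d) : F :=
  if h : 1 ≤ (x.2 : ℕ) then G ⟨x.1, ⟨x.2 - 1, by have := x.2.2; omega⟩⟩ x else 0

/-- A matrix of the quadratic form. -/
def Um {n : ℕ} (e : Ix d ≃ Fin n) (G : Matrix (Ix d) (Ix d) F) : Matrix (Ix d) (Ix d) F :=
  fun x y => if e x < e y then G x y else if x = y then qd G x else 0

theorem Um_add {n : ℕ} (e : Ix d ≃ Fin n) (h1 : ∀ x y, G y x = - G x y) (h2 : ∀ x, G x x = 0) :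
    Um e G + (Um e G)ᵀ = G := by
  ext x y
  simp only [Matrix.add_apply, Matrix.transpose_apply, Um]
  rcases lt_trichotomy (e x) (e y) with h | h | h
  · have h3 : ¬ e y < e x := not_lt.mpr h.le
    have h4 : ¬ y = x := fun h5 => by
      rw [h5] at h
      exact lt_irrefl _ h
    rw [if_pos h, if_neg h3, if_neg h4, add_zero]
  · have h3 : x = y := e.injective h
    subst h3
    simp only [lt_self_iff_false, if_false, if_true]
    rw [h2, CharTwo.add_self_eq_zero]
  · have h3 : ¬ e x < e y := not_lt.mpr h.le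
    have h4 : ¬ x = y := fun h5 => by
      rw [h5] at h
      exact lt_irrefl _ h
    rw [if_neg h3, if_neg h4, if_pos h, zero_add, h1 y x, CharTwo.neg_eq]

theorem Um_self {n : ℕ} (e : Ix d ≃ Fin n) (x : Ix d) : Um e G x x = qd G x := by
  simp [Um]

theorem J_mulVec_single (x : Ix d) :
    jordanTypeMatrix d F *ᵥ Pi.single x 1 =
      Pi.single x 1 + if h : (x.2 : ℕ) + 1 < d x.1 then Pi.single ⟨x.1, ⟨x.2 + 1, h⟩⟩ 1 else 0 := by
  rw [J_eq, Matrix.add_mulVec, Matrix.one_mulVec]
  congr 1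
  funext z
  rw [Matrix.mulVec_single_one, Matrix.col_apply]
  obtain ⟨k, a⟩ := x
  obtain ⟨l, c⟩ := z
  simp only [Nil]
  by_cases h : (a : ℕ) + 1 < d k
  · rw [dif_pos h, Pi.single_apply]
    by_cases h3 : l = k ∧ (c : ℕ) = a + 1
    · rw [if_pos h3, if_pos]
      obtain ⟨rfl, h4⟩ := h3
      congr 1
      exact Fin.ext h4
    · rw [if_neg h3, if_neg]
      intro h4
      apply h3
      have h5 := congrArg Sigma.fst h4
      simp only at h5
      subst h5
      have h6 : c = ⟨a + 1, h⟩ := by simpa using h4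
      exact ⟨rfl, by rw [h6]⟩
  · rw [dif_neg h, if_neg, Pi.zero_apply]
    rintro ⟨rfl, h4⟩
    have := c.2
    omega

/-- The invariant quadratic form in characteristic two. -/
theorem toQF_inv_char2 {n : ℕ} (e : Ix d ≃ Fin n) (hG : FormsNec.Inv G) (h1 : ∀ x y, G y x = - G x y) (h2 : ∀ x, G x x = 0)
    (v : Ix d → F) :
    Matrix.toQuadraticForm' (Um e G) (jordanTypeMatrix d F *ᵥ v) = Matrix.toQuadraticForm' (Um e G) v := by
  classical
  set Qt := Matrix.toQuadraticForm' (Um e G) with hQt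
  have hpol : ∀ u v, QuadraticMap.polar Qt u v = u ⬝ᵥ G *ᵥ v := by
    intro u v
    rw [hQt, polar_toQF, Um_add e h1 h2]
  have hadd : ∀ u v, Qt (u + v) = Qt u + Qt v + u ⬝ᵥ G *ᵥ v := by
    intro u v
    rw [← hpol, QuadraticMap.polar]
    ring
  have hpolinv : ∀ u v, (jordanTypeMatrix d F *ᵥ u) ⬝ᵥ G *ᵥ (jordanTypeMatrix d F *ᵥ v) = u ⬝ᵥ G *ᵥ v := by
    intro u v
    rw [dot_mulVec_mulVec, hG]
  let D : (Ix d → F) →+ F := AddMonoidHom.mk' (fun u => Qt (jordanTypeMatrix d F *ᵥ u) - Qt u) (by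
    intro u w
    simp only [Matrix.mulVec_add]
    rw [hadd, hadd, hpolinv]
    ring)
  have hD : ∀ u, D u = Qt (jordanTypeMatrix d F *ᵥ u) - Qt u := fun u => rfl
  have hqs : ∀ x, Qt (Pi.single x 1) = qd G x := by
    intro x
    have h : ∀ w, Qt w = w ⬝ᵥ (Um e G) *ᵥ w := by
      intro w
      simp [hQt, Matrix.toQuadraticForm', Matrix.toLinearMap₂'_apply']
    rw [h, Matrix.mulVec_single_one, single_one_dotProduct, Matrix.col_apply, Um_self]
  have hsingle : ∀ x, D (Pi.single x 1) = 0 := by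
    intro x
    rw [hD, J_mulVec_single]
    by_cases h : (x.2 : ℕ) + 1 < d x.1
    · rw [dif_pos h, hadd, Matrix.mulVec_single_one, single_one_dotProduct, Matrix.col_apply]
      rw [hqs ⟨x.1, ⟨x.2 + 1, h⟩⟩]
      have h3 : qd G (⟨x.1, ⟨x.2 + 1, h⟩⟩ : Ix d) = G x ⟨x.1, ⟨x.2 + 1, h⟩⟩ := by
        rw [qd, dif_pos (by simp)]
        rfl
      rw [h3, add_assoc, CharTwo.add_self_eq_zero]
      ring
    · rw [dif_neg h, add_zero, sub_self]
  have hsm : ∀ x (c : F), D (Pi.single x c) = 0 := by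
    intro x c
    have h3 : (Pi.single x c : Ix d → F) = c • Pi.single x 1 := by
      rw [← Pi.single_smul]
      simp
    rw [h3, hD, Matrix.mulVec_smul, QuadraticMap.map_smul, QuadraticMap.map_smul, ← smul_sub, ← hD, hsingle, smul_zero]
  have hv : D v = 0 := by
    rw [← Finset.univ_sum_single v, map_sum]
    exact Finset.sum_eq_zero (fun x _ => hsm x _)
  rw [hD] at hv
  exact sub_eq_zero.mp hv

end CharTwo

end Cfsg.Agent.Lib.Jordan.FormsFin
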