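import Cfsg.Agent.Lib.Jordan.Cent
import Cfsg.Agent.S0752

/-!
# Invariant forms of a unipotent matrix in Jordan form: necessary conditions

If a nondegenerate form `G` is invariant under `jordanTypeMatrix d F` then the form on the multiplicity
space of the blocks of size `j` is nondegenerate, and it is alternating in the suitable parity.
-/

set_option autoImplicit false
set_option linter.unusedSectionVars false

namespace Cfsg.Agent.Lib.Jordan.FormsNec

open Matrix Finset
open Cfsg Cfsg.Agent.Lib.Jordan.Cent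

variable {F : Type*} [Field F] {t : ℕ} {d : Fin t → ℕ}

/-- Alternating nondegenerate matrices have even size. -/
theorem even_of_alt {T : Type*} [Fintype T] [DecidableEq T] (M : Matrix T T F) (hu : IsUnit M)
    (h1 : ∀ x y, M y x = - M x y) (h2 : ∀ x, M x x = 0) : Even (Fintype.card T) := by
  classical
  let C : LinearMap.BilinForm F (T → F) := Matrix.toBilin' M
  have hC : ∀ u v, C u v = ∑ x, ∑ y, u x * M x y * v y := by
    intro u v
    simp only [C, Matrix.toBilin'_apply']
    rw [dotProduct]
    apply Finset.sum_congr rfl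
    intro x _
    rw [Matrix.mulVec, dotProduct, Finset.mul_sum]
    apply Finset.sum_congr rfl
    intro y _
    ring
  have halt : C.IsAlt := by
    intro v
    rw [hC, ← Finset.sum_product']
    apply Finset.sum_involution (fun p _ => (p.2, p.1))
    · rintro ⟨x, y⟩ _
      simp only
      rw [h1 x y]
      ring
    · rintro ⟨x, y⟩ _ hne heq
      simp only [Prod.mk.injEq] at heq
      obtain ⟨rfl, -⟩ := heq
      simp [h2] at hne
    · intro p _
      exact Finset.mem_product.mpr ⟨Finset.mem_univ _, Finset.mem_univ _⟩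
    · rintro ⟨x, y⟩ _
      rfl
  obtain ⟨m, k, b, -, -, -, h4⟩ := Cfsg.Agent.S0752.result C halt
  have hk : k = 0 := by
    by_contra hne
    have hpos : 0 < k := Nat.pos_of_ne_zero hne
    let j : Fin k := ⟨0, hpos⟩
    have h5 : b (Sum.inr j) = 0 := by
      have hdet : IsUnit M.det := (Matrix.isUnit_iff_isUnit_det M).mp hu
      have h6 : M *ᵥ (b (Sum.inr j)) = 0 := by
        funext x
        have h7 := h4 j (Pi.single x 1)
        have h8 := hC (Pi.single x 1) (b (Sum.inr j))
        have h9 := h4 j (Pi.single x 1)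
        have h10 : C (b (Sum.inr j)) (Pi.single x 1) = - C (Pi.single x 1) (b (Sum.inr j)) := by
          exact (halt.neg_eq (Pi.single x 1) (b (Sum.inr j))).symm
        have h11 : C (Pi.single x 1) (b (Sum.inr j)) = 0 := by
          have h12 := h4 j (Pi.single x 1)
          rw [h10] at h12
          exact neg_eq_zero.mp h12
        simp only [C, Matrix.toBilin'_apply', single_dotProduct, one_mul] at h11
        exact h11
      have h7 := congrArg (fun w => M⁻¹ *ᵥ w) h6
      simpa [Matrix.mulVec_mulVec, Matrix.nonsing_inv_mul M hdet] using h7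
    exact b.ne_zero _ h5
  subst hk
  have h5 : Module.finrank F (T → F) = Fintype.card ((Fin m ⊕ Fin m) ⊕ Fin 0) := Module.finrank_eq_card_basis b
  rw [Module.finrank_fintype_fun_eq_card] at h5
  rw [h5]
  simp [Even]
  exact ⟨m, rfl⟩

/-- Blocks of an invertible block triangular matrix are invertible. -/
theorem isUnit_block {ι α : Type*} [Fintype ι] [DecidableEq ι] [DecidableEq α] [LinearOrder α] {M : Matrix ι ι F}
    {b : ι → α} (hM : BlockTriangular M b) (hu : IsUnit M) (v : α) : IsUnit (M.toSquareBlock b v) := by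
  rw [Matrix.isUnit_iff_isUnit_det, isUnit_iff_ne_zero]
  by_cases hv : v ∈ Finset.univ.image b
  · have h1 := hM.det
    have h2 : M.det ≠ 0 := by
      rw [← isUnit_iff_ne_zero]
      exact (Matrix.isUnit_iff_isUnit_det M).mp hu
    rw [h1] at h2
    exact Finset.prod_ne_zero_iff.mp h2 v hv
  · have : IsEmpty {a // b a = v} := ⟨fun a => hv (Finset.mem_image.mpr ⟨a.1, Finset.mem_univ _, a.2⟩)⟩
    simp [Matrix.det_isEmpty]

theorem Nil_tr_mul (A : Matrix (Ix d) (Ix d) F) (l k : Fin t) (a : Fin (d l)) (c : Fin (d k)) :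
    ((Nil F d)ᵀ * A) ⟨l, a⟩ ⟨k, c⟩ = B A l k (a + 1) c := by
  have h1 : ((Nil F d)ᵀ * A) ⟨l, a⟩ ⟨k, c⟩ = (Aᵀ * Nil F d) ⟨k, c⟩ ⟨l, a⟩ := by
    rw [Matrix.mul_apply, Matrix.mul_apply]
    apply Finset.sum_congr rfl
    intro z _
    simp only [Matrix.transpose_apply]
    ring
  rw [h1, mul_Nil]
  by_cases h : (a : ℕ) + 1 < d l
  · rw [dif_pos h, B, dif_pos ⟨h, c.2⟩]
    rfl
  · rw [dif_neg h]
    exact (B_of_le_left A (by omega)).symm

theorem mul_Nil_B (A : Matrix (Ix d) (Ix d) F) (l k : Fin t) (a : Fin (d l)) (c : Fin (d k)) :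
    (A * Nil F d) ⟨l, a⟩ ⟨k, c⟩ = B A l k a (c + 1) := by
  rw [mul_Nil]
  by_cases h : (c : ℕ) + 1 < d k
  · rw [dif_pos h, B, dif_pos ⟨a.2, h⟩]
  · rw [dif_neg h]
    exact (B_of_le_right A (by omega)).symm

/-- Invariance of a form. -/
def Inv (G : Matrix (Ix d) (Ix d) F) : Prop :=
  (jordanTypeMatrix d F)ᵀ * G * jordanTypeMatrix d F = G

theorem inv_iff (G : Matrix (Ix d) (Ix d) F) :
    Inv G ↔ (Nil F d)ᵀ * G + G * Nil F d + (Nil F d)ᵀ * G * Nil F d = 0 := by
  rw [Inv, J_eq, Matrix.transpose_add, Matrix.transpose_one]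
  have h : (1 + (Nil F d)ᵀ) * G * (1 + Nil F d) =
      G + ((Nil F d)ᵀ * G + G * Nil F d + (Nil F d)ᵀ * G * Nil F d) := by
    simp only [add_mul, mul_add, one_mul, mul_one]
    abel
  rw [h]
  exact add_eq_left

theorem inv_rel {G : Matrix (Ix d) (Ix d) F} (hG : Inv G) (l k : Fin t) (a c : ℕ) (ha : a < d l) (hc : c < d k) :
    B G l k (a + 1) c + B G l k a (c + 1) + B G l k (a + 1) (c + 1) = 0 := by
  have h1 := congrFun (congrFun ((inv_iff G).mp hG) ⟨l, ⟨a, ha⟩⟩) ⟨k, ⟨c, hc⟩⟩
  simp only [Matrix.add_apply, Matrix.zero_apply] at h1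
  rw [Nil_tr_mul, mul_Nil_B, mul_Nil_B] at h1
  simp only at h1
  have h2 : B ((Nil F d)ᵀ * G) l k a (c + 1) = B G l k (a + 1) (c + 1) := by
    by_cases h : c + 1 < d k
    · rw [B, dif_pos ⟨ha, h⟩, Nil_tr_mul]
    · rw [B_of_le_right _ (by omega), B_of_le_right _ (by omega)]
  rw [h2] at h1
  exact h1

section Inv

variable {G : Matrix (Ix d) (Ix d) F} (hG : Inv G)
include hG

theorem zero_left (l k : Fin t) : ∀ c a, d l ≤ a + c → B G l k a c = 0 := by
  intro c
  induction c with
  | zero =>
    intro a h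
    exact B_of_le_left G (by omega)
  | succ c ih =>
    have key : ∀ s a, d l ≤ a + s → d l ≤ a + (c + 1) → B G l k a (c + 1) = 0 := by
      intro s
      induction s with
      | zero =>
        intro a h1 _
        exact B_of_le_left G (by omega)
      | succ s ihs =>
        intro a h1 h2
        by_cases ha : a < d l
        · by_cases hc : c < d k
          · have h3 := inv_rel hG l k a c ha hc
            rw [ih (a + 1) (by omega), ihs (a + 1) (by omega) (by omega)] at h3
            simpa using h3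
          · exact B_of_le_right G (by omega)
        · exact B_of_le_left G (by omega)
    intro a h
    exact key (d l) a (by omega) h

theorem zero_right (l k : Fin t) : ∀ a c, d k ≤ a + c → B G l k a c = 0 := by
  intro a
  induction a with
  | zero =>
    intro c h
    exact B_of_le_right G (by omega)
  | succ a ih =>
    have key : ∀ s c, d k ≤ c + s → d k ≤ (a + 1) + c → B G l k (a + 1) c = 0 := by
      intro s
      induction s with
      | zero =>
        intro c h1 _
        exact B_of_le_right G (by omega)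
      | succ s ihs =>
        intro c h1 h2
        by_cases hc : c < d k
        · by_cases ha : a < d l
          · have h3 := inv_rel hG l k a c ha hc
            rw [ih (c + 1) (by omega), ihs (c + 1) (by omega) (by omega)] at h3
            simpa using h3
          · exact B_of_le_left G (by omega)
        · exact B_of_le_right G (by omega)
    intro c h
    exact key (d k) c (by omega) h

/-- The entries on the antidiagonal. -/
theorem anti (l k : Fin t) {j : ℕ} (hl : d l = j) (hk : d k = j) :
    ∀ c a, a + c + 1 = j → B G l k a c = (-1) ^ c * B G l k (a + c) 0 := by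
  intro c
  induction c with
  | zero => intro a _; simp
  | succ c ih =>
    intro a h
    have h3 := inv_rel hG l k a c (by omega) (by omega)
    rw [zero_left hG l k (c + 1) (a + 1) (by omega), add_zero] at h3
    have h4 : B G l k a (c + 1) = - B G l k (a + 1) c := by
      linear_combination h3
    rw [h4, ih (a + 1) (by omega), pow_succ]
    have : a + 1 + c = a + (c + 1) := by omega
    rw [this]
    ring

end Inv

/-- The weight. -/
def wt (x : Ix d) : ℤ ×ₗ ℕ := toLex (2 * ((x.2 : ℕ) : ℤ) - (d x.1 : ℤ), d x.1)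

/-- The reversal of the blocks. -/
def tau : Equiv.Perm (Ix d) := Equiv.sigmaCongrRight fun k => Fin.revPerm

@[simp] theorem tau_fst (x : Ix d) : (tau x).1 = x.1 := rfl
@[simp] theorem tau_snd (x : Ix d) : ((tau x).2 : ℕ) = d x.1 - (x.2 + 1) := by
  obtain ⟨k, c⟩ := x
  show ((Fin.rev c : Fin (d k)) : ℕ) = _
  rw [Fin.val_rev]

theorem block_tri {G : Matrix (Ix d) (Ix d) F} (hG : Inv G) : BlockTriangular (G.submatrix id tau) wt := by
  rintro ⟨l, a⟩ ⟨k, c⟩ hlt
  by_contra hne
  simp only [Matrix.submatrix_apply, id] at hne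
  have ha := a.2
  have hc := c.2
  have h1 : B G l k a (d k - (c + 1)) ≠ 0 := by
    have h2 := B_apply G ⟨l, a⟩ (tau ⟨k, c⟩)
    simp only [tau_fst, tau_snd] at h2
    rw [h2]
    exact hne
  have h3 : ¬ d l ≤ a + (d k - (c + 1)) := fun h => h1 (zero_left hG l k _ _ h)
  have h4 : ¬ d k ≤ a + (d k - (c + 1)) := fun h => h1 (zero_right hG l k _ _ h)
  simp only [wt] at hlt
  rw [Prod.Lex.toLex_lt_toLex] at hlt
  simp only at hlt
  omega

/-- The form on the multiplicity space. -/
def mult (G : Matrix (Ix d) (Ix d) F) (j : ℕ) : Matrix (Tp d j) (Tp d j) F :=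
  fun l k => B G l k (j - 1) 0

theorem mult_isUnit {G : Matrix (Ix d) (Ix d) F} (hG : Inv G) (hu : IsUnit G) (j : ℕ) (hj : 1 ≤ j) :
    IsUnit (mult G j) := by
  classical
  have hu2 : IsUnit (G.submatrix id (tau (d := d))) := by
    have hdet : IsUnit G.det := (Matrix.isUnit_iff_isUnit_det G).mp hu
    have h1 : (G.submatrix id (tau (d := d))) * (G⁻¹.submatrix (tau (d := d)) id) = 1 := by
      rw [Matrix.submatrix_mul_equiv, Matrix.mul_nonsing_inv G hdet, Matrix.submatrix_id_id]
    exact IsUnit.of_mul_eq_one _ h1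
  let v : ℤ ×ₗ ℕ := toLex (2 * (((j - 1 : ℕ)) : ℤ) - (j : ℤ), j)
  have h2 := isUnit_block (block_tri hG) hu2 v
  let f : Tp d j ≃ {x : Ix d // wt x = v} :=
    { toFun := fun k => ⟨⟨k.1, ⟨j - 1, by rw [k.2]; omega⟩⟩, by
        have hk := k.2
        show toLex (2 * (((j - 1 : ℕ)) : ℤ) - (d k.1 : ℤ), d k.1) = _
        rw [hk]⟩
      invFun := fun x => ⟨x.1.1, by
        have h3 := x.2
        simp only [wt, v, EmbeddingLike.apply_eq_iff_eq, Prod.mk.injEq] at h3
        exact h3.2⟩
      left_inv := fun k => rfl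
      right_inv := by
        rintro ⟨⟨k, c⟩, hx⟩
        have h3 := hx
        simp only [wt, v, EmbeddingLike.apply_eq_iff_eq, Prod.mk.injEq] at h3
        obtain ⟨h4, h5⟩ := h3
        apply Subtype.ext
        simp only
        congr 1
        apply Fin.ext
        simp only
        omega }
  have h3 : mult G j = (toSquareBlock (G.submatrix id tau) wt v).submatrix f f := by
    ext l k
    have h4 := B_apply G ⟨l.1, ⟨j - 1, by rw [l.2]; omega⟩⟩ (tau ⟨k.1, ⟨j - 1, by rw [k.2]; omega⟩⟩)
    simp only [tau_fst, tau_snd] at h4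
    have h5 : d k.1 - (j - 1 + 1) = 0 := by
      have := k.2
      omega
    rw [h5] at h4
    exact h4
  rw [h3, Matrix.isUnit_iff_isUnit_det, Matrix.det_submatrix_equiv_self, ← Matrix.isUnit_iff_isUnit_det]
  exact h2

/-- The parity statement for alternating forms. -/
theorem even_of_alt_form {G : Matrix (Ix d) (Ix d) F} (hG : Inv G) (hu : IsUnit G) (h1 : ∀ x y, G y x = - G x y)
    (h2 : ∀ x, G x x = 0) (j : ℕ) (hj : Odd j) : Even (Finset.univ.filter (fun k : Fin t => d k = j)).card := by
  classical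
  have hj1 : 1 ≤ j := hj.pos
  rw [← Fintype.card_subtype]
  apply even_of_alt (mult G j) (mult_isUnit hG hu j hj1)
  · intro l k
    have ha : j - 1 < j := by omega
    have h3 : B G k l (j - 1) 0 = - B G l k 0 (j - 1) := by
      rw [B, B, dif_pos ⟨by rw [k.2]; omega, by rw [l.2]; omega⟩, dif_pos ⟨by rw [l.2]; omega, by rw [k.2]; omega⟩]
      exact h1 _ _
    have h4 := anti hG l k l.2 k.2 (j - 1) 0 (by omega)
    have h5 : ((-1 : F)) ^ (j - 1) = 1 := by
      obtain ⟨r, hr⟩ := hj
      exact Even.neg_one_pow ⟨r, by omega⟩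
    rw [Nat.zero_add, h5] at h4
    simp only [mult]
    rw [h3, h4]
    ring
  · intro k
    obtain ⟨r, hr⟩ := hj
    have h3 := anti hG k.1 k.1 k.2 k.2 r r (by omega)
    have h4 : B G k.1 k.1 r r = 0 := by
      rw [B, dif_pos ⟨by rw [k.2]; omega, by rw [k.2]; omega⟩]
      exact h2 _
    rw [h4] at h3
    have h5 : r + r = j - 1 := by omega
    rw [h5] at h3
    have h6 : B G k.1 k.1 (j - 1) 0 = 0 := by
      have : ((-1 : F) ^ r) ≠ 0 := pow_ne_zero _ (by simp)
      exact (mul_eq_zero.mp h3.symm).resolve_left this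
    exact h6

/-- The parity statement for symmetric forms. -/
theorem even_of_sym_form (h20 : (2 : F) ≠ 0) {G : Matrix (Ix d) (Ix d) F} (hG : Inv G) (hu : IsUnit G) (h1 : ∀ x y, G y x = G x y)
    (j : ℕ) (hj : Even j) (hj0 : 0 < j) : Even (Finset.univ.filter (fun k : Fin t => d k = j)).card := by
  classical
  have hj1 : 1 ≤ j := hj0
  rw [← Fintype.card_subtype]
  have hskew : ∀ l k : Tp d j, mult G j k l = - mult G j l k := by
    intro l k
    have ha : j - 1 < j := by omega
    have h3 : B G k l (j - 1) 0 = B G l k 0 (j - 1) := by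
      rw [B, B, dif_pos ⟨by rw [k.2]; omega, by rw [l.2]; omega⟩, dif_pos ⟨by rw [l.2]; omega, by rw [k.2]; omega⟩]
      exact h1 _ _
    have h4 := anti hG l k l.2 k.2 (j - 1) 0 (by omega)
    have h5 : ((-1 : F)) ^ (j - 1) = -1 := by
      have : Odd (j - 1) := by
        obtain ⟨r, hr⟩ := hj
        exact ⟨r - 1, by omega⟩
      exact this.neg_one_pow
    rw [Nat.zero_add, h5] at h4
    simp only [mult]
    rw [h3, h4]
    ring
  apply even_of_alt (mult G j) (mult_isUnit hG hu j hj1) hskew
  intro k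
  have h3 := hskew k k
  have h4 : (2 : F) * mult G j k k = 0 := by
    linear_combination h3
  exact (mul_eq_zero.mp h4).resolve_left h20

end Cfsg.Agent.Lib.Jordan.FormsNec
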