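import Cfsg.Agent.Lib.Jordan.Basis
import Cfsg.Agent.Lib.Classical.MatrixBridge

/-!
# Unipotent elements of `GL` and their Jordan types
-/

set_option autoImplicit false
set_option linter.unusedSectionVars false

namespace Cfsg.Agent.Lib.Jordan.GL

open Polynomial Module Cfsg.Agent.Lib.Jordan.Basis Cfsg.Agent.Lib.Classical.MatrixBridge
open scoped Matrix

universe u

variable {F : Type u} [Field F] {ι : Type} [Fintype ι] [DecidableEq ι]

/-- The nilpotent part `g - 1`. -/
noncomputable def Nm (g : GL ι F) : (ι → F) →ₗ[F] (ι → F) := Matrix.mulVecLin ((g : Matrix ι ι F) - 1)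

theorem Nm_apply (g : GL ι F) (x : ι → F) : Nm g x = (g : Matrix ι ι F) *ᵥ x - x := by
  simp [Nm, Matrix.sub_mulVec]

theorem g_apply (g : GL ι F) (x : ι → F) : (g : Matrix ι ι F) *ᵥ x = x + Nm g x := by
  rw [Nm_apply]
  abel

/-- The Jordan type. -/
def HasType (g : GL ι F) (M : Multiset ℕ) : Prop :=
  ∃ (t : ℕ) (d : Fin t → ℕ) (b : Basis ((k : Fin t) × Fin (d k)) F (ι → F)),
    (∀ k, 1 ≤ d k) ∧ IsJordanBasis (Nm g) d b ∧ mset d = M

theorem isConj_iff_linear (g h : GL ι F) :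
    IsConj g h ↔ ∃ P : (ι → F) ≃ₗ[F] (ι → F), ∀ x, P (Nm g x) = Nm h (P x) := by
  constructor
  · intro hc
    obtain ⟨c, hc⟩ := isConj_iff.mp hc
    refine ⟨glToLin c, fun x => ?_⟩
    have h1 : c * g = h * c := by rw [← hc]; group
    have h2 : glToLin c ((g : Matrix ι ι F) *ᵥ x) = (h : Matrix ι ι F) *ᵥ (glToLin c x) := by
      have := congrArg (fun u : GL ι F => glToLin u x) h1
      simpa [map_mul] using this
    rw [Nm_apply, Nm_apply, map_sub, h2]
  · rintro ⟨P, hP⟩
    refine isConj_iff.mpr ⟨glToLin.symm P, ?_⟩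
    apply glToLin.injective
    rw [map_mul, map_mul, map_inv, MulEquiv.apply_symm_apply]
    apply LinearEquiv.ext
    intro x
    obtain ⟨y, rfl⟩ := P.surjective x
    show P (glToLin g (P⁻¹ (P y))) = glToLin h (P y)
    have h3 : P⁻¹ (P y) = y := P.symm_apply_apply y
    rw [h3, glToLin_apply, glToLin_apply, g_apply, g_apply, map_add, hP]

theorem exists_type (g : GL ι F) (hN : IsNilpotent (Nm g)) : ∃ M, HasType g M := by
  obtain ⟨t, d, b, hd, hb⟩ := exists_jordanBasis (Nm g) hN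
  exact ⟨_, t, d, b, hd, hb, rfl⟩

theorem HasType.sum {g : GL ι F} {M : Multiset ℕ} (h : HasType g M) : M.sum = Fintype.card ι := by
  obtain ⟨t, d, b, hd, hb, rfl⟩ := h
  have := hb.sum_eq
  rw [Module.finrank_fintype_fun_eq_card] at this
  rw [← this]
  rfl

theorem HasType.zero_notMem {g : GL ι F} {M : Multiset ℕ} (h : HasType g M) : 0 ∉ M := by
  obtain ⟨t, d, b, hd, hb, rfl⟩ := h
  exact zero_notMem_mset hd

theorem conj_of_type {g h : GL ι F} {M : Multiset ℕ} (hg : HasType g M) (hh : HasType h M) : IsConj g h := by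
  obtain ⟨t, d, b, hd, hb, rfl⟩ := hg
  obtain ⟨t', d', b', hd', hb', hm⟩ := hh
  rw [isConj_iff_linear]
  exact conj_of_mset_eq hb hb' hm.symm

theorem type_eq_of_conj {g h : GL ι F} {M M' : Multiset ℕ} (hc : IsConj g h) (hg : HasType g M) (hh : HasType h M') :
    M = M' := by
  obtain ⟨t, d, b, hd, hb, rfl⟩ := hg
  obtain ⟨t', d', b', hd', hb', rfl⟩ := hh
  obtain ⟨P, hP⟩ := (isConj_iff_linear _ _).mp hc
  exact mset_eq_of_conj hb hb' hd hd' P hP

theorem HasType.pow_eq_zero_iff {g : GL ι F} {M : Multiset ℕ} (h : HasType g M) (s : ℕ) :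
    (Nm g) ^ s = 0 ↔ ∀ a ∈ M, a ≤ s := by
  obtain ⟨t, d, b, hd, hb, rfl⟩ := h
  rw [hb.pow_eq_zero_iff]
  constructor
  · intro h1 a ha
    obtain ⟨k, -, rfl⟩ := Multiset.mem_map.mp ha
    exact h1 k
  · intro h1 k
    exact h1 _ (Multiset.mem_map_of_mem d (Finset.mem_univ_val k))

theorem HasType.isNilpotent {g : GL ι F} {M : Multiset ℕ} (h : HasType g M) : IsNilpotent (Nm g) := by
  obtain ⟨t, d, b, hd, hb, rfl⟩ := h
  exact hb.isNilpotent

theorem Nm_pow (g : GL ι F) (s : ℕ) : (Nm g) ^ s = Matrix.mulVecLin (((g : Matrix ι ι F) - 1) ^ s) := by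
  induction s with
  | zero =>
    simp only [pow_zero, Matrix.mulVecLin_one]
    rfl
  | succ s ih =>
    rw [pow_succ, ih, pow_succ, Matrix.mulVecLin_mul]
    rfl

theorem eq_one_iff (g : GL ι F) : g = 1 ↔ Nm g = 0 := by
  constructor
  · rintro rfl
    ext x
    simp [Nm]
  · intro h
    apply Units.ext
    ext i j
    have h1 := congrFun (LinearMap.congr_fun h (Pi.single j 1)) i
    simp only [Nm, Matrix.mulVecLin_apply, Matrix.mulVec_single_one, Matrix.col_apply, LinearMap.zero_apply, Pi.zero_apply,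
      Matrix.sub_apply] at h1
    rw [Units.val_one]
    exact sub_eq_zero.mp h1

/-- Existence of elements of a given type. -/
theorem exists_of_mset (M : Multiset ℕ) (h0 : 0 ∉ M) (hsum : M.sum = Fintype.card ι) :
    ∃ g : GL ι F, HasType g M := by
  classical
  let l := M.toList
  let t := l.length
  let d : Fin t → ℕ := l.get
  have hm : mset d = M := by
    rw [mset, Fin.univ_val_map]
    have : List.ofFn d = l := List.ofFn_get l
    rw [this]
    exact Multiset.coe_toList M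
  have hd : ∀ k, 1 ≤ d k := by
    intro k
    have : d k ∈ M := by
      rw [← Multiset.mem_toList]
      exact List.get_mem _ _
    rcases Nat.eq_zero_or_pos (d k) with h | h
    · rw [h] at this
      exact absurd this h0
    · exact h
  let I := (k : Fin t) × Fin (d k)
  have hcard : Fintype.card I = Fintype.card ι := by
    rw [← hsum, Fintype.card_sigma, ← hm, mset]
    rw [Finset.sum]
    simp only [Fintype.card_fin]
  let e : I ≃ ι := Fintype.equivOfCardEq hcard
  let Ψ : (I → F) ≃ₗ[F] (ι → F) := LinearEquiv.funCongrLeft F F e.symm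
  let N₀ : (I → F) →ₗ[F] (I → F) := Matrix.mulVecLin (Cfsg.jordanTypeMatrix d F - 1)
  have hN₀ := isJordanBasis_std (F := F) d
  let T : (ι → F) →ₗ[F] (ι → F) := Ψ.toLinearMap ∘ₗ N₀ ∘ₗ Ψ.symm.toLinearMap
  have hTpow : ∀ s, T ^ s = Ψ.toLinearMap ∘ₗ (N₀ ^ s) ∘ₗ Ψ.symm.toLinearMap := by
    intro s
    induction s with
    | zero =>
      ext x
      simp
    | succ s ih =>
      rw [pow_succ, ih, pow_succ]
      ext x
      simp [T]
  have hTn : IsNilpotent T := by
    obtain ⟨m, hm⟩ := hN₀.isNilpotent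
    refine ⟨m, ?_⟩
    rw [hTpow]
    have hm' : N₀ ^ m = 0 := hm
    rw [hm']
    simp
  obtain ⟨u, hu⟩ := hTn.isUnit_one_add
  let E : (ι → F) ≃ₗ[F] (ι → F) := LinearEquiv.ofLinearMap (u : Module.End F (ι → F)) (↑u⁻¹ : Module.End F (ι → F))
    (Units.mul_inv u) (Units.inv_mul u)
  have hE : ∀ x, E x = x + T x := by
    intro x
    show (u : Module.End F (ι → F)) x = _
    rw [hu]
    rfl
  let g : GL ι F := glToLin.symm E
  have hNg : Nm g = T := by
    apply LinearMap.ext
    intro x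
    rw [Nm_apply]
    show ((glToLin.symm E : GL ι F) : Matrix ι ι F) *ᵥ x - x = _
    rw [glToLin_symm_mulVec, hE, add_sub_cancel_left]
  refine ⟨g, t, d, (Pi.basisFun F I).map Ψ, hd, ?_, hm⟩
  rw [hNg]
  intro k j
  have h1 : T (((Pi.basisFun F I).map Ψ) ⟨k, j⟩) = Ψ (N₀ ((Pi.basisFun F I) ⟨k, j⟩)) := by
    rw [Basis.map_apply]
    show Ψ (N₀ (Ψ.symm (Ψ _))) = _
    rw [LinearEquiv.symm_apply_apply]
  rw [h1, hN₀ k j]
  by_cases h : (j : ℕ) + 1 < d k
  · rw [dif_pos h, dif_pos h, Basis.map_apply]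
  · rw [dif_neg h, dif_neg h, map_zero]

end Cfsg.Agent.Lib.Jordan.GL
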