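import Cfsg.Agent.Lib.Jordan.GL
import Cfsg.Agent.S2587
import Cfsg.Agent.S2588
import Cfsg.Agent.S2570

/-!
Unipotent elements and unitary groups: a unipotent matrix is similar to its
inverse conjugate transpose, so it is conjugate to an element of `GU`.
-/

set_option autoImplicit false
open Cfsg Polynomial Cfsg.Agent.Lib.HermCount.Field Cfsg.Agent.Lib.Jordan.GL Cfsg.Agent.Lib.Jordan.Basis Module
open scoped Matrix

namespace Cfsg.Agent.Lib.Jordan.GU

section
variable {F : Type*} [Field F] {ι : Type} [Fintype ι]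

/-- Rank is preserved by applying a ring automorphism to the entries. -/
theorem rank_map_ringEquiv (σ : F ≃+* F) (Y : Matrix ι ι F) : (Y.map σ).rank = Y.rank := by
  classical
  show finrank F (LinearMap.range (Y.map σ).mulVecLin) = finrank F (LinearMap.range Y.mulVecLin)
  let j : LinearMap.range Y.mulVecLin ≃+ LinearMap.range (Y.map σ).mulVecLin :=
    { toFun := fun v => ⟨fun i => σ (v.1 i), by
        obtain ⟨v, x, hx⟩ := v
        refine ⟨fun i => σ (x i), ?_⟩
        ext i
        have := congrFun hx i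
        simp only [Matrix.mulVecLin_apply, Matrix.mulVec, dotProduct, Matrix.map_apply] at this ⊢
        rw [← this, map_sum]
        simp⟩
      invFun := fun v => ⟨fun i => σ.symm (v.1 i), by
        obtain ⟨v, x, hx⟩ := v
        refine ⟨fun i => σ.symm (x i), ?_⟩
        ext i
        have := congrFun hx i
        simp only [Matrix.mulVecLin_apply, Matrix.mulVec, dotProduct, Matrix.map_apply] at this ⊢
        rw [← this, map_sum]
        simp⟩
      left_inv := fun v => by
        apply Subtype.ext
        funext i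
        simp
      right_inv := fun v => by
        apply Subtype.ext
        funext i
        simp
      map_add' := fun v w => by
        apply Subtype.ext
        funext i
        simp }
  have h := rank_eq_of_equiv_equiv σ j σ.bijective (fun r v => by
    apply Subtype.ext
    funext i
    simp [j])
  exact (congrArg Cardinal.toNat h).symm

variable [DecidableEq ι]

/-- Unipotent matrices with the same ranks of powers of `g - 1` are conjugate. -/
theorem conj_of_rank {g h : GL ι F} (hg : IsNilpotent (Nm g)) (hh : IsNilpotent (Nm h))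
    (hr : ∀ s : ℕ, (((g : Matrix ι ι F) - 1) ^ s).rank = (((h : Matrix ι ι F) - 1) ^ s).rank) :
    IsConj g h := by
  obtain ⟨M, hM⟩ := exists_type g hg
  obtain ⟨M', hM'⟩ := exists_type h hh
  have hMM : M = M' := by
    apply multiset_eq_of_sum_sub _ _ hM.zero_notMem hM'.zero_notMem
    intro s
    obtain ⟨t, d, b, hd, hb, rfl⟩ := hM
    obtain ⟨t', d', b', hd', hb', rfl⟩ := hM'
    rw [mset_sum_sub, mset_sum_sub, ← hb.finrank_range_pow, ← hb'.finrank_range_pow, Nm_pow, Nm_pow]
    exact hr s
  subst hMM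
  exact conj_of_type hM hM'


end

section
open Cfsg.Agent.S2587
variable {K : Type*} [Field K] [Fintype K] {q n : ℕ}

theorem sh_pow' (hK : Fintype.card K = q ^ 2) (X : Matrix (Fin n) (Fin n) K) (s : ℕ) :
    (sh hK X) ^ s = sh hK (X ^ s) := by
  induction s with
  | zero => simp [sh_one]
  | succ s ih =>
    rw [pow_succ, ih, ← sh_mul, pow_succ']

theorem rank_sh (hK : Fintype.card K = q ^ 2) (Y : Matrix (Fin n) (Fin n) K) : (sh hK Y).rank = Y.rank := by
  classical
  have h1 : Function.Bijective (frobHom hK) := by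
    refine ⟨(frobHom hK).injective, ?_⟩
    intro y
    exact ⟨frobHom hK y, frob_frob hK y⟩
  rw [sh, Matrix.rank_transpose]
  exact rank_map_ringEquiv (RingEquiv.ofBijective (frobHom hK) h1) Y

/-- The element of `GL` given by the conjugate transpose. -/
def shGL (hK : Fintype.card K = q ^ 2) (g : GL (Fin n) K) : GL (Fin n) K where
  val := sh hK (g : Matrix (Fin n) (Fin n) K)
  inv := sh hK ((g⁻¹ : GL (Fin n) K) : Matrix (Fin n) (Fin n) K)
  val_inv := by
    rw [← sh_mul, ← Units.val_mul, inv_mul_cancel, Units.val_one, sh_one]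
  inv_val := by
    rw [← sh_mul, ← Units.val_mul, mul_inv_cancel, Units.val_one, sh_one]

/-- A unipotent matrix is conjugate to its inverse conjugate transpose. -/
theorem conj_shGL_inv (hK : Fintype.card K = q ^ 2) (g : GL (Fin n) K) (hg : IsNilpotent (Nm g)) :
    IsConj g (shGL hK g)⁻¹ := by
  set B := shGL hK g with hB
  have hBv : (B : Matrix (Fin n) (Fin n) K) = sh hK (g : Matrix (Fin n) (Fin n) K) := rfl
  set X : Matrix (Fin n) (Fin n) K := (g : Matrix (Fin n) (Fin n) K) - 1 with hX
  have hB1 : (B : Matrix (Fin n) (Fin n) K) - 1 = sh hK X := by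
    have h1 : (g : Matrix (Fin n) (Fin n) K) = X + 1 := by rw [hX]; abel
    rw [hBv, h1, sh_add, sh_one]
    abel
  have hinv : ((B⁻¹ : GL (Fin n) K) : Matrix (Fin n) (Fin n) K) - 1 =
      - ((B⁻¹ : GL (Fin n) K) : Matrix (Fin n) (Fin n) K) * ((B : Matrix (Fin n) (Fin n) K) - 1) := by
    rw [neg_mul, mul_sub, ← Units.val_mul, inv_mul_cancel, Units.val_one, mul_one]
    abel
  have hcomm : Commute (- ((B⁻¹ : GL (Fin n) K) : Matrix (Fin n) (Fin n) K)) ((B : Matrix (Fin n) (Fin n) K) - 1) := by
    apply Commute.neg_left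
    apply Commute.sub_right _ (Commute.one_right _)
    show ((B⁻¹ : GL (Fin n) K) : Matrix (Fin n) (Fin n) K) * (B : Matrix (Fin n) (Fin n) K) = (B : Matrix (Fin n) (Fin n) K) * ((B⁻¹ : GL (Fin n) K) : Matrix (Fin n) (Fin n) K)
    rw [← Units.val_mul, ← Units.val_mul, inv_mul_cancel, mul_inv_cancel]
  have hpow : ∀ s : ℕ, (((B⁻¹ : GL (Fin n) K) : Matrix (Fin n) (Fin n) K) - 1) ^ s =
      (- ((B⁻¹ : GL (Fin n) K) : Matrix (Fin n) (Fin n) K)) ^ s * sh hK (X ^ s) := by
    intro s
    rw [hinv, hcomm.mul_pow, hB1, sh_pow']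
  have hunit : ∀ s : ℕ, IsUnit ((- ((B⁻¹ : GL (Fin n) K) : Matrix (Fin n) (Fin n) K)) ^ s).det := by
    intro s
    rw [← Matrix.isUnit_iff_isUnit_det]
    exact ((B⁻¹).isUnit.neg).pow s
  apply conj_of_rank hg
  · obtain ⟨s, hs⟩ := hg
    refine ⟨s, ?_⟩
    rw [Nm_pow, hpow]
    rw [Nm_pow] at hs
    have h0 : X ^ s = 0 := by
      ext i j
      have := congrFun (LinearMap.congr_fun hs (Pi.single j 1)) i
      simpa using this
    have h1 : sh hK (0 : Matrix (Fin n) (Fin n) K) = 0 := by
      ext i j
      have hq2 := two_le hK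
      have : q ≠ 0 := by omega
      simp [sh, this]
    rw [h0, h1, mul_zero, Matrix.mulVecLin_zero]
  · intro s
    rw [hpow, Matrix.rank_mul_eq_right_of_isUnit_det _ _ (hunit s), rank_sh]

end

end Cfsg.Agent.Lib.Jordan.GU
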