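import Cfsg.Agent.Lib.Jordan.GU
import Cfsg.Agent.Lib.MatConj.RegUnip
import Cfsg.Agent.Lib.HermCount.Lines

/-!
Regular unipotent elements of the general unitary group.
-/

set_option autoImplicit false
open Cfsg Polynomial Cfsg.Agent.Lib.HermCount.Field Cfsg.Agent.Lib.Jordan.GL Cfsg.Agent.Lib.Jordan.Basis Module
open Cfsg.Agent.Lib.MatConj.RegUnip Cfsg.Agent.Lib.Jordan.GU
open scoped Matrix

namespace Cfsg.Agent.Lib.Jordan.RegGU

section comm
variable {F V : Type*} [Field F] [AddCommGroup V] [Module F V] [FiniteDimensional F V] {n : ℕ} {N : V →ₗ[F] V}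

/-- The commutant of a regular nilpotent consists of polynomials in it. -/
theorem exists_poly_of_comm (hV : finrank F V = n) (hnil : N ^ n = 0)
    (hrank : finrank F (LinearMap.range N) = n - 1) (hn : 1 ≤ n) (A : V →ₗ[F] V) (hc : A * N = N * A) :
    ∃ p : F[X], A = aeval N p := by
  classical
  obtain ⟨w, hw⟩ := exists_cyclic hV hnil hrank hn
  let b := cyclicBasis hV hnil hw
  let p : F[X] := ∑ i : Fin n, C (b.repr (A w) i) * X ^ (i : ℕ)
  have hpw : aeval N p w = A w := by
    conv_rhs => rw [← b.sum_repr (A w)]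
    simp only [p, map_sum, map_mul, aeval_C, aeval_X, map_pow, LinearMap.sum_apply]
    refine Finset.sum_congr rfl fun i _ => ?_
    simp only [b, cyclicBasis_apply]
    rfl
  refine ⟨p, ?_⟩
  apply b.ext
  intro i
  simp only [b, cyclicBasis_apply]
  have h1 : Commute A N := hc
  have h2 : Commute (aeval N p) N := by
    have h := (Polynomial.commute_X p).map (aeval N)
    simpa using h.symm
  have h3 : A ((N ^ (i : ℕ)) w) = (N ^ (i : ℕ)) (A w) := by
    have := (h1.pow_right (i : ℕ)).eq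
    exact LinearMap.congr_fun this w
  have h4 : (aeval N p) ((N ^ (i : ℕ)) w) = (N ^ (i : ℕ)) ((aeval N p) w) := by
    have := (h2.pow_right (i : ℕ)).eq
    exact LinearMap.congr_fun this w
  rw [h3, h4, hpw]

end comm

section det
variable {K : Type*} [Field K] [Fintype K] {n : ℕ}

/-- A unipotent matrix over a finite field has determinant one. -/
theorem det_eq_one_of_nil (M : Matrix (Fin n) (Fin n) K) (k : ℕ) (h : (M - 1) ^ k = 0) : M.det = 1 := by
  obtain ⟨p, hp⟩ := CharP.exists K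
  haveI := hp
  haveI : Fact p.Prime := ⟨CharP.char_is_prime K p⟩
  have hpk : k ≤ p ^ k := (Nat.lt_pow_self (Fact.out : p.Prime).one_lt).le
  have h0 : (M - 1) ^ (p ^ k) = 0 := by
    rw [← Nat.sub_add_cancel hpk, pow_add, h, mul_zero]
  have h1 : ((X : K[X]) - 1) ^ (p ^ k) = X ^ (p ^ k) - 1 := by
    rw [sub_pow_char_pow]
    simp
  have h2 := congrArg (aeval M) h1
  simp only [map_pow, map_sub, aeval_X, map_one] at h2
  rw [h0] at h2
  have h3 : M ^ (p ^ k) = 1 := (sub_eq_zero.mp h2.symm)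
  have h4 : M.det ^ (p ^ k) = 1 := by
    rw [← Matrix.det_pow, h3, Matrix.det_one]
  have h5 : (M.det - 1) ^ (p ^ k) = 0 := by
    rw [sub_pow_char_pow, h4]
    simp
  exact sub_eq_zero.mp (pow_eq_zero_iff (pow_ne_zero _ (Fact.out : p.Prime).ne_zero) |>.mp h5)

end det

section reg
variable {K : Type*} [Field K] {n : ℕ}

/-- Regular unipotent. -/
def IsReg (g : GL (Fin n) K) : Prop :=
  ((g : Matrix (Fin n) (Fin n) K) - 1) ^ n = 0 ∧ ((g : Matrix (Fin n) (Fin n) K) - 1).rank = n - 1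

theorem IsReg.nil {g : GL (Fin n) K} (hg : IsReg g) : (Matrix.mulVecLin ((g : Matrix (Fin n) (Fin n) K) - 1)) ^ n = 0 := by
  rw [← mulVecLin_pow, hg.1, Matrix.mulVecLin_zero]

theorem IsReg.rank_pow {g : GL (Fin n) K} (hg : IsReg g) (s : ℕ) :
    (((g : Matrix (Fin n) (Fin n) K) - 1) ^ s).rank = n - s := by
  by_cases hs : s ≤ n
  · have h1 := finrank_ker_pow (V := Fin n → K) (n := n) (N := Matrix.mulVecLin ((g : Matrix (Fin n) (Fin n) K) - 1))
      (by simp) hg.nil hg.2 hs
    rw [← mulVecLin_pow] at h1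
    have h2 := LinearMap.finrank_range_add_finrank_ker (((g : Matrix (Fin n) (Fin n) K) - 1) ^ s).mulVecLin
    rw [h1] at h2
    simp only [Module.finrank_fin_fun] at h2
    show finrank K (LinearMap.range _) = _
    omega
  · have h1 : ((g : Matrix (Fin n) (Fin n) K) - 1) ^ s = 0 := by
      have : s = (s - n) + n := by omega
      rw [this, pow_add, hg.1, mul_zero]
    rw [h1, Matrix.rank_zero]
    omega

theorem IsReg.nm_nil {g : GL (Fin n) K} (hg : IsReg g) : IsNilpotent (Nm g) :=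
  ⟨n, hg.nil⟩

/-- Two regular unipotents are conjugate. -/
theorem IsReg.isConj {g h : GL (Fin n) K} (hg : IsReg g) (hh : IsReg h) : IsConj g h :=
  conj_of_rank hg.nm_nil hh.nm_nil (fun s => by rw [hg.rank_pow, hh.rank_pow])

/-- Regularity is invariant under conjugation. -/
theorem IsReg.of_isConj {g h : GL (Fin n) K} (hg : IsReg g) (hc : IsConj g h) : IsReg h := by
  obtain ⟨c, rfl⟩ := isConj_iff.mp hc
  have h1 : ((c * g * c⁻¹ : GL (Fin n) K) : Matrix (Fin n) (Fin n) K) - 1 =
      (c : Matrix (Fin n) (Fin n) K) * ((g : Matrix (Fin n) (Fin n) K) - 1) * ((c⁻¹ : GL (Fin n) K) : Matrix (Fin n) (Fin n) K) := by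
    have h2 : (c : Matrix (Fin n) (Fin n) K) * ((c⁻¹ : GL (Fin n) K) : Matrix (Fin n) (Fin n) K) = 1 := by
      rw [← Units.val_mul, mul_inv_cancel, Units.val_one]
    rw [mul_sub, sub_mul, mul_one, h2, Units.val_mul, Units.val_mul]
  have h3 : ∀ s : ℕ, (((c * g * c⁻¹ : GL (Fin n) K) : Matrix (Fin n) (Fin n) K) - 1) ^ s =
      (c : Matrix (Fin n) (Fin n) K) * ((g : Matrix (Fin n) (Fin n) K) - 1) ^ s * ((c⁻¹ : GL (Fin n) K) : Matrix (Fin n) (Fin n) K) := by
    intro s
    rw [h1]
    have h4 := Units.conj_pow c ((g : Matrix (Fin n) (Fin n) K) - 1) s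
    exact h4
  constructor
  · rw [h3, hg.1, mul_zero, zero_mul]
  · rw [h1, Matrix.rank_mul_eq_left_of_isUnit_det _ _ ((Matrix.isUnit_iff_isUnit_det _).mp (c⁻¹).isUnit),
      Matrix.rank_mul_eq_right_of_isUnit_det _ _ ((Matrix.isUnit_iff_isUnit_det _).mp c.isUnit)]
    exact hg.2

/-- There is a regular unipotent. -/
theorem exists_isReg (hn : 1 ≤ n) : ∃ g : GL (Fin n) K, IsReg g := by
  obtain ⟨g, hg⟩ := exists_of_mset (F := K) (ι := Fin n) {n} (by
    simp only [Multiset.mem_singleton]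
    omega) (by simp)
  refine ⟨g, ?_, ?_⟩
  · have h1 := (hg.pow_eq_zero_iff n).mpr (by simp)
    rw [Nm_pow] at h1
    ext i j
    have := congrFun (LinearMap.congr_fun h1 (Pi.single j 1)) i
    simpa using this
  · obtain ⟨t, d, b, hd, hb, hm⟩ := hg
    have h1 := hb.finrank_range_pow 1
    rw [pow_one] at h1
    rw [← mset_sum_sub, hm] at h1
    have h2 : finrank K (LinearMap.range (Nm g)) = ((g : Matrix (Fin n) (Fin n) K) - 1).rank := rfl
    rw [← h2, h1]
    simp

end reg

section gu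
open Cfsg.Agent.S2587
variable {K : Type*} [Field K] [Fintype K] {q n : ℕ}

/-- There is a regular unipotent element in `GU`. -/
theorem exists_isReg_GU (hK : Fintype.card K = q ^ 2) (hn : 1 ≤ n) : ∃ g : GL (Fin n) K, g ∈ GU n K q ∧ IsReg g := by
  obtain ⟨g, hg⟩ := exists_isReg (K := K) hn
  have h3 := conj_shGL_inv hK g hg.nm_nil
  have h4 : IsConj (g : Matrix (Fin n) (Fin n) K) (((g : Matrix (Fin n) (Fin n) K).map (fun x : K => x ^ q)).transpose)⁻¹ := by
    have h5 := MonoidHom.map_isConj (Units.coeHom (Matrix (Fin n) (Fin n) K)) h3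
    have h6 : Units.coeHom (Matrix (Fin n) (Fin n) K) (shGL hK g)⁻¹ = (((g : Matrix (Fin n) (Fin n) K).map (fun x : K => x ^ q)).transpose)⁻¹ := by
      rw [Units.coeHom_apply, Matrix.coe_units_inv]
      rfl
    rw [← h6]
    exact h5
  obtain ⟨B, hB⟩ := (Cfsg.Agent.S2588.result hK g).mpr h4
  exact ⟨B, B.2, hg.of_isConj hB⟩

/-- Centraliser of a regular unipotent in `GU`: the determinant is an `n`-th power of a
norm-one scalar. -/
theorem cent_det (hK : Fintype.card K = q ^ 2) (hn : 1 ≤ n) {u a : GL (Fin n) K} (hu : u ∈ GU n K q)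
    (ha : a ∈ GU n K q) (hreg : IsReg u) (hc : a * u = u * a) :
    ∃ c : K, c ^ (q + 1) = 1 ∧ (a : Matrix (Fin n) (Fin n) K).det = c ^ n := by
  classical
  have hq2 := two_le hK
  have S := Cfsg.Agent.Lib.HermCount.Lines.herm_space (q := q) n hK
  set Xm : Matrix (Fin n) (Fin n) K := (u : Matrix (Fin n) (Fin n) K) - 1 with hXm
  haveI : Nonempty (Fin n) := ⟨⟨0, hn⟩⟩
  have hcm : (a : Matrix (Fin n) (Fin n) K) * Xm = Xm * (a : Matrix (Fin n) (Fin n) K) := by
    have h1 := congrArg (fun g : GL (Fin n) K => (g : Matrix (Fin n) (Fin n) K)) hc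
    simp only [Units.val_mul] at h1
    rw [hXm, mul_sub, sub_mul, h1, mul_one, one_mul]
  -- the polynomial
  obtain ⟨p, hp⟩ := exists_poly_of_comm (V := Fin n → K) (n := n) (N := Matrix.toLinAlgEquiv' Xm) (by simp)
    (by
      rw [← map_pow, hreg.1, map_zero])
    (by
      have := hreg.2
      exact this) hn (Matrix.toLinAlgEquiv' (a : Matrix (Fin n) (Fin n) K))
    (by rw [← map_mul, ← map_mul, hcm])
  have hpm : (a : Matrix (Fin n) (Fin n) K) = aeval Xm p := by
    apply (Matrix.toLinAlgEquiv' (R := K) (n := Fin n)).injective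
    rw [hp]
    exact aeval_algHom_apply (Matrix.toLinAlgEquiv' (R := K) (n := Fin n)).toAlgHom Xm p
  -- decompose
  set R : Matrix (Fin n) (Fin n) K := aeval Xm (divX p) with hR
  set c := p.coeff 0 with hc0
  have hdec : (a : Matrix (Fin n) (Fin n) K) = R * Xm + c • 1 := by
    conv_lhs => rw [hpm, ← divX_mul_X_add p]
    simp only [map_add, map_mul, aeval_X, aeval_C, Algebra.algebraMap_eq_smul_one, hR, hc0]
  have hRX : Commute R Xm := by
    have h := (Polynomial.commute_X (divX p)).map (aeval Xm)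
    simpa [hR] using h.symm
  have hnpow : (R * Xm) ^ n = 0 := by
    rw [hRX.mul_pow, hreg.1, mul_zero]
  have hcne : c ≠ 0 := by
    intro h0
    rw [h0, zero_smul, add_zero] at hdec
    have h1 : (a : Matrix (Fin n) (Fin n) K) ^ n = 0 := by rw [hdec, hnpow]
    have h2 : IsUnit ((a : Matrix (Fin n) (Fin n) K) ^ n) := a.isUnit.pow n
    rw [h1] at h2
    exact not_isUnit_zero h2
  -- the scalar has norm one
  have hnil := hreg.nil
  have hrank : finrank K (LinearMap.range (Matrix.mulVecLin Xm)) = n - 1 := hreg.2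
  obtain ⟨w, hw⟩ := exists_cyclic (V := Fin n → K) (n := n) (N := Matrix.mulVecLin Xm) (by simp) hnil hrank hn
  set y := ((Matrix.mulVecLin Xm) ^ (n - 1)) w with hy
  have hXy : Xm *ᵥ y = 0 := by
    have h1 : (Matrix.mulVecLin Xm) ^ n = (Matrix.mulVecLin Xm) ^ 1 * (Matrix.mulVecLin Xm) ^ (n - 1) := by
      rw [← pow_add]
      congr 1
      omega
    have h2 := LinearMap.congr_fun (h1.symm.trans hnil) w
    simpa [Module.End.mul_apply] using h2
  have huy : (u : Matrix (Fin n) (Fin n) K) *ᵥ y = y := by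
    have h1 : (u : Matrix (Fin n) (Fin n) K) = Xm + 1 := by rw [hXm]; abel
    rw [h1, Matrix.add_mulVec, hXy, Matrix.one_mulVec, zero_add]
  have hay : (a : Matrix (Fin n) (Fin n) K) *ᵥ y = c • y := by
    rw [hdec, Matrix.add_mulVec, ← Matrix.mulVec_mulVec, hXy, Matrix.mulVec_zero, zero_add, Matrix.smul_mulVec, Matrix.one_mulVec]
  -- `y` is orthogonal to the range of `X`
  have hperp : ∀ t, hermForm n K q y (Xm *ᵥ t) = 0 := by
    intro t
    have h1 : hermForm n K q ((u : Matrix (Fin n) (Fin n) K) *ᵥ y) ((u : Matrix (Fin n) (Fin n) K) *ᵥ t) = hermForm n K q y t := hu y t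
    rw [huy] at h1
    have h2 : (u : Matrix (Fin n) (Fin n) K) *ᵥ t = Xm *ᵥ t + t := by
      have h3 : (u : Matrix (Fin n) (Fin n) K) = Xm + 1 := by rw [hXm]; abel
      rw [h3, Matrix.add_mulVec, Matrix.one_mulVec]
    rw [h2, S.add_right hK] at h1
    linear_combination h1
  have hnorm : c ^ (q + 1) = 1 := by
    obtain ⟨z, hz⟩ : ∃ z, hermForm n K q y z ≠ 0 := by
      by_contra hcon
      push Not at hcon
      exact hw (S.nd y hcon)
    have h1 : hermForm n K q ((a : Matrix (Fin n) (Fin n) K) *ᵥ y) ((a : Matrix (Fin n) (Fin n) K) *ᵥ z) = hermForm n K q y z := ha y z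
    rw [hay, S.smul_left] at h1
    have h2 : (a : Matrix (Fin n) (Fin n) K) *ᵥ z = Xm *ᵥ (R *ᵥ z) + c • z := by
      rw [hdec, Matrix.add_mulVec, Matrix.smul_mulVec, Matrix.one_mulVec, Matrix.mulVec_mulVec, hRX.eq]
    rw [h2, S.add_right hK, hperp, zero_add, S.smul_right hK] at h1
    have h3 : (c ^ (q + 1) - 1) * hermForm n K q y z = 0 := by
      rw [pow_succ]
      linear_combination h1
    exact sub_eq_zero.mp ((mul_eq_zero.mp h3).resolve_right hz)
  refine ⟨c, hnorm, ?_⟩
  -- the determinant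
  set M : Matrix (Fin n) (Fin n) K := 1 + c⁻¹ • (R * Xm) with hM
  have hM1 : (M - 1) ^ n = 0 := by
    have : M - 1 = c⁻¹ • (R * Xm) := by rw [hM]; abel
    rw [this, _root_.smul_pow, hnpow, smul_zero]
  have hdetM := det_eq_one_of_nil M n hM1
  have haM : (a : Matrix (Fin n) (Fin n) K) = c • M := by
    rw [hdec, hM, smul_add, smul_smul, mul_inv_cancel₀ hcne, one_smul, add_comm]
  rw [haM, Matrix.det_smul, hdetM, mul_one, Fintype.card_fin]

end gu

end Cfsg.Agent.Lib.Jordan.RegGU
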